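import Mathlib
import Cfsg.Agent.H63.BG11Defs

set_option autoImplicit false

/-!
# Bender–Glauberman §11, the normality statement 11.7 (`M_σ A ⊴ M`): piece statements
(helper29; paper proof = board post 4207)
-/

namespace Cfsg.Agent.H29.BG117

open Cfsg Subgroup Cfsg.Agent.H58.BG10 Cfsg.Agent.H63.BG11

universe u

variable {G : Type u} [Group G]

/-- (SIG) `M_σ ≠ 1` for every maximal subgroup. -/
def StSigNe (G : Type u) [Group G] : Prop :=
  ∀ M : Subgroup G, IsCoatom M → sigmaCore M ≠ ⊥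

/-- CLAIM D: `M` maximal, `t ∉ σ(M)`, `Z ≤ M` elementary abelian of order `t²` with
`C_G(Z) ≤ M`; then `C_{M_σ}(Z) = 1`. -/
def StClaimD (G : Type u) [Group G] : Prop :=
  ∀ (M : Subgroup G), IsCoatom M → ∀ (t : ℕ) [Fact t.Prime], t ∉ sigma M → ∀ Z : Subgroup G,
    Z ≤ M → IsElementaryAbelian t Z → Nat.card Z = t ^ 2 → centralizer (Z : Set G) ≤ M →
    sigmaCore M ⊓ centralizer (Z : Set G) = ⊥

/-- (Ω) (helper38, board post 3799): under Hypothesis 11.1 the Sylow `p`-subgroups of `M` are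
abelian, and `A` is the set of elements of order dividing `p` of each one containing it. -/
def StExcOmega (G : Type u) [Group G] : Prop :=
  ∀ (M A A₀ : Subgroup G) (p : ℕ) [Fact p.Prime], Exc M A A₀ p → ∀ P : Sylow p M,
    IsMulCommutative (P : Subgroup M) ∧
      (A ≤ (P : Subgroup M).map M.subtype →
        ∀ x ∈ (P : Subgroup M).map M.subtype, x ^ p = 1 ↔ x ∈ A)

/-- STEP 1: two distinct subgroups of order `p` of `A` without fixed points on `M_σ`. -/
def StExcTwoFree (G : Type u) [Group G] : Prop :=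
  ∀ (M A A₀ : Subgroup G) (p : ℕ) [Fact p.Prime], Exc M A A₀ p →
    ∃ Aa Ab : Subgroup G, Aa ≤ A ∧ Ab ≤ A ∧ Nat.card Aa = p ∧ Nat.card Ab = p ∧ Aa ≠ Ab ∧
      sigmaCore M ⊓ centralizer (Aa : Set G) = ⊥ ∧ sigmaCore M ⊓ centralizer (Ab : Set G) = ⊥

/-- The fixed-point-free commutator lemma (a consequence of S1445 in a quotient): `R` of prime
order acts on the `t`-group `Y`, both act on the nilpotent group `V` of order prime to `t` and
to `|R|`, and `R` has no fixed points on `V`; then `[Y, R]` centralizes `V`. -/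
def StFpfComm (G : Type u) [Group G] : Prop :=
  ∀ (V Y R : Subgroup G) (t : ℕ) [Fact t.Prime], Group.IsNilpotent V → IsPGroup t Y →
    (Nat.card R).Prime → Y ≤ normalizer (V : Set G) → R ≤ normalizer (V : Set G) →
    R ≤ normalizer (Y : Set G) → ¬ t ∣ Nat.card V → ¬ Nat.card R ∣ Nat.card V →
    Nat.card R ≠ t → V ⊓ centralizer (R : Set G) = ⊥ → ⁅Y, R⁆ ≤ centralizer (V : Set G)

/-- STEP 2: `[Y, A]` centralizes `M_σ` for every `A`-invariant `t`-subgroup `Y` of `M`,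
`t ∉ σ(M) ∪ {p}`. -/
def StExcComm (G : Type u) [Group G] : Prop :=
  ∀ (M A A₀ : Subgroup G) (p : ℕ) [Fact p.Prime], Exc M A A₀ p → ∀ (t : ℕ) [Fact t.Prime],
    t ∉ sigma M → t ≠ p → ∀ Y : Subgroup G, Y ≤ M → IsPGroup t Y → A ≤ normalizer (Y : Set G) →
    ⁅Y, A⁆ ≤ centralizer (sigmaCore M : Set G)

/-- STEP 3: if `A` does not centralize some `A`-invariant `s`-subgroup of `M`,
`s ∉ σ(M) ∪ {p}`, then there is a normal `t`-subgroup `T` of `M`, `t ∉ σ(M) ∪ {p}`, which
centralizes `M_σ` and is not centralized by `A`. -/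
def StExcNT (G : Type u) [Group G] : Prop :=
  ∀ (M A A₀ : Subgroup G) (p : ℕ) [Fact p.Prime], Exc M A A₀ p → ∀ (s : ℕ) [Fact s.Prime],
    s ∉ sigma M → s ≠ p → ∀ Y : Subgroup G, Y ≤ M → IsPGroup s Y → A ≤ normalizer (Y : Set G) →
    ¬ Y ≤ centralizer (A : Set G) →
    ∃ (t : ℕ) (T : Subgroup G), t.Prime ∧ t ∉ sigma M ∧ t ≠ p ∧ T ≤ M ∧
      M ≤ normalizer (T : Set G) ∧ IsPGroup t T ∧ T ≤ centralizer (sigmaCore M : Set G) ∧
      ¬ T ≤ centralizer (A : Set G)

/-- STEP 3': such a `T` makes `M` exceptional for `t` as well, with a normal subgroup `Z` of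
order `t`, and `p < t`. -/
def StExcT1 (G : Type u) [Group G] : Prop :=
  ∀ (M A A₀ : Subgroup G) (p : ℕ) [Fact p.Prime], Exc M A A₀ p → ∀ (t : ℕ) [Fact t.Prime],
    t ∉ sigma M → t ≠ p → ∀ T : Subgroup G, T ≤ M → M ≤ normalizer (T : Set G) → IsPGroup t T →
    T ≤ centralizer (sigmaCore M : Set G) → ¬ T ≤ centralizer (A : Set G) →
    p < t ∧ ∃ B Z : Subgroup G, Exc M B Z t ∧ M ≤ normalizer (Z : Set G)

/-- STEP 4: `M` exceptional for `p` (with `A`) and for `t > p` (with a normal `Z` of order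
`t`): then `t` divides `|C_G(A)|`. -/
def StExcT2 (G : Type u) [Group G] : Prop :=
  ∀ (M A A₀ : Subgroup G) (p : ℕ) [Fact p.Prime], Exc M A A₀ p → ∀ (t : ℕ) [Fact t.Prime],
    p < t → ∀ B Z : Subgroup G, Exc M B Z t → M ≤ normalizer (Z : Set G) →
    t ∣ Nat.card (centralizer (A : Set G))

/-- STEP 5 (B&G 10.16-type): `A` elementary abelian of order `p²` with the transitivity
hypothesis, `t ≠ p` a non-ideal prime dividing `|C_G(A)|`; then `A` centralizes every
`A`-invariant `t`-subgroup of `G`. -/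
def StCentT (G : Type u) [Group G] : Prop :=
  ∀ (p : ℕ) [Fact p.Prime] (A : Subgroup G), IsElementaryAbelian p A → Nat.card A = p ^ 2 →
    TransitivityHypothesis A → ∀ (t : ℕ) [Fact t.Prime], t ≠ p → ¬ IsIdealPrime t G →
    t ∣ Nat.card (centralizer (A : Set G)) → ∀ T : Subgroup G, IsPGroup t T →
    A ≤ normalizer (T : Set G) → T ≤ centralizer (A : Set G)

/-- (*) `A` centralizes every `A`-invariant subgroup of `M` of order prime to `σ(M) ∪ {p}`. -/
def StExcStar (G : Type u) [Group G] : Prop :=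
  ∀ (M A A₀ : Subgroup G) (p : ℕ) [Fact p.Prime], Exc M A A₀ p → ∀ Y : Subgroup G, Y ≤ M →
    A ≤ normalizer (Y : Set G) → (∀ q : ℕ, q.Prime → q ∣ Nat.card Y → q ∉ sigma M ∧ q ≠ p) →
    Y ≤ centralizer (A : Set G)

/-- B&G 11.7 (= S1417(c) under Hypothesis 11.1): `M_σ A ⊴ M`. -/
def StExcNormal (G : Type u) [Group G] : Prop :=
  ∀ (M A A₀ : Subgroup G) (p : ℕ) [Fact p.Prime], Exc M A A₀ p →
    M ≤ normalizer ((sigmaCore M ⊔ A : Subgroup G) : Set G)

end Cfsg.Agent.H29.BG117
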