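import Mathlib
import Cfsg.Agent.S1445
import Cfsg.Agent.H13.FitInt
import Cfsg.Agent.H58.Sig2
import Cfsg.Agent.H29.BG117Defs

set_option autoImplicit false

/-!
# The fixed-point-free commutator lemma (piece FPF of B&G 11.7; helper29)
-/

namespace Cfsg.Agent.H29.BG117

open Cfsg Subgroup
open scoped commutatorElement

universe u

section faithful

variable {Q : Type u} [Group Q]

/-- A `t`-group meets a group of order prime to `t` trivially. -/
theorem inf_eq_bot_of_pgroup_not_dvd [Finite Q] {t : ℕ} [Fact t.Prime] {V Y : Subgroup Q}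
    (hY : IsPGroup t Y) (hV : ¬ t ∣ Nat.card V) : V ⊓ Y = ⊥ := by
  apply disjoint_iff.mp
  apply Subgroup.disjoint_of_coprime_natCard
  obtain ⟨k, hk⟩ := IsPGroup.iff_card.mp hY
  rw [hk]
  exact Nat.Coprime.pow_right k
    (((Nat.Prime.coprime_iff_not_dvd (Fact.out : t.Prime)).mpr hV).symm)

/-- For `R` of order dividing a prime, the centralizer of a nontrivial element is that of `R`. -/
theorem centralizer_singleton_eq_of_card_dvd_prime [Finite Q] {R : Subgroup Q} {r : ℕ}
    (hr : r.Prime) (hRr : Nat.card R ∣ r) {x : Q} (hx : x ∈ R) (hx1 : x ≠ 1) :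
    centralizer ({x} : Set Q) = centralizer (R : Set Q) := by
  have hcard : Nat.card R = r := by
    rcases (Nat.dvd_prime hr).mp hRr with h | h
    · exfalso
      have hb : R = ⊥ := Subgroup.card_eq_one.mp h
      rw [hb, Subgroup.mem_bot] at hx
      exact hx1 hx
    · exact h
  haveI : Fact r.Prime := ⟨hr⟩
  have hz : zpowers (⟨x, hx⟩ : R) = ⊤ :=
    zpowers_eq_top_of_prime_card hcard (fun h => hx1 (congrArg Subtype.val h))
  apply le_antisymm
  · intro g hg
    rw [Subgroup.mem_centralizer_iff] at hg ⊢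
    intro y hy
    have hy' : (⟨y, hy⟩ : R) ∈ zpowers (⟨x, hx⟩ : R) := by rw [hz]; trivial
    obtain ⟨k, hk⟩ := Subgroup.mem_zpowers_iff.mp hy'
    have hyk : y = x ^ k := by
      have := congrArg Subtype.val hk
      simpa using this.symm
    have hc : Commute x g := hg x (Set.mem_singleton x)
    rw [hyk]
    exact (hc.zpow_left k).eq
  · exact Subgroup.centralizer_le (Set.singleton_subset_iff.mpr hx)

/-- The faithful case: `Q = V Y R` solvable of odd order, `V ⊴ Q`, `V Y ⊴ Q`, `Y` a `t`-group,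
`t ∤ |V|`, `|R|` divides the prime `r ≠ t`, `r ∤ |V|`, `C_V(R) = 1` and `C_Y(V) = 1`.
Then `[Y, R] ≤ V`. -/
theorem fpf_faithful [Finite Q] [Group.IsSolvable Q] (hodd : Odd (Nat.card Q))
    (V Y R : Subgroup Q) [hVn : V.Normal] [hKn : (V ⊔ Y).Normal] (htop : (V ⊔ Y) ⊔ R = ⊤)
    (t : ℕ) [Fact t.Prime] (hY : IsPGroup t Y) (htV : ¬ t ∣ Nat.card V)
    (r : ℕ) (hr : r.Prime) (hRr : Nat.card R ∣ r) (hrV : ¬ r ∣ Nat.card V) (hrt : r ≠ t)
    (hVR : V ⊓ centralizer (R : Set Q) = ⊥) (hYV : Y ⊓ centralizer (V : Set Q) = ⊥) :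
    ⁅Y, R⁆ ≤ V := by
  haveI : Fact r.Prime := ⟨hr⟩
  -- the Fitting subgroup of `K = V Y` lies in `V`
  have hF : Cfsg.fittingOf (V ⊔ Y) ≤ V := by
    rw [Cfsg.Agent.H13.FitInt.fittingOf_eq_iSup]
    apply iSup_le
    intro q
    haveI : Fact (q : ℕ).Prime := ⟨q.2⟩
    have hTp : IsPGroup (q : ℕ) (Cfsg.Agent.H13.FitInt.opInt (q : ℕ) (V ⊔ Y)) :=
      Cfsg.Agent.H13.FitInt.opInt_isPGroup _ _
    have hTK : Cfsg.Agent.H13.FitInt.opInt (q : ℕ) (V ⊔ Y) ≤ V ⊔ Y :=
      Cfsg.Agent.H13.FitInt.opInt_le _ _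
    haveI hTn : (Cfsg.Agent.H13.FitInt.opInt (q : ℕ) (V ⊔ Y)).Normal :=
      Cfsg.Agent.H13.FitInt.opInt_normal _ _
    generalize Cfsg.Agent.H13.FitInt.opInt (q : ℕ) (V ⊔ Y) = T at hTp hTK hTn
    by_cases hqt : (q : ℕ) = t
    · -- `T` is a normal `t`-subgroup: it lies in `Y` and centralizes `V`
      rw [hqt] at hTp
      have hTY : T ≤ Y := by
        have hp : IsPGroup t (T ⊔ Y : Subgroup Q) := hTp.to_sup_of_normal_left hY
        obtain ⟨k, hk⟩ := IsPGroup.iff_card.mp hp
        have h1 : Nat.card (T ⊔ Y : Subgroup Q) ∣ Nat.card V * Nat.card Y := by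
          refine (Subgroup.card_dvd_of_le (sup_le hTK le_sup_right)).trans ?_
          have := Cfsg.Agent.H40.card_sup_dvd_mul Y V
          rwa [sup_comm, mul_comm] at this
        have h2 : (Nat.card (T ⊔ Y : Subgroup Q)).Coprime (Nat.card V) := by
          rw [hk]
          exact Nat.Coprime.pow_left k
            ((Nat.Prime.coprime_iff_not_dvd (Fact.out : t.Prime)).mpr htV)
        have h3 : Nat.card (T ⊔ Y : Subgroup Q) ∣ Nat.card Y := h2.dvd_of_dvd_mul_left h1
        have h4 : Y = T ⊔ Y :=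
          Subgroup.eq_of_le_of_card_ge le_sup_right (Nat.le_of_dvd Nat.card_pos h3)
        rw [h4]
        exact le_sup_left
      have hTV : T ⊓ V = ⊥ := by
        rw [inf_comm]
        exact inf_eq_bot_of_pgroup_not_dvd hTp htV
      have hTC : T ≤ centralizer (V : Set Q) := by
        intro x hx
        rw [Subgroup.mem_centralizer_iff]
        intro v hv
        have h1 : x * v * x⁻¹ * v⁻¹ ∈ T := by
          have : x * (v * x⁻¹ * v⁻¹) ∈ T := T.mul_mem hx (hTn.conj_mem _ (T.inv_mem hx) v)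
          simpa [mul_assoc] using this
        have h2 : x * v * x⁻¹ * v⁻¹ ∈ V := V.mul_mem (hVn.conj_mem _ hv x) (V.inv_mem hv)
        have h3 : x * v * x⁻¹ * v⁻¹ ∈ T ⊓ V := ⟨h1, h2⟩
        rw [hTV, Subgroup.mem_bot] at h3
        have : x * v = v * x := by
          have h4 := congrArg (fun z => z * v * x) h3
          simpa [mul_assoc] using h4
        exact this.symm
      have : T ≤ Y ⊓ centralizer (V : Set Q) := le_inf hTY hTC
      rw [hYV] at this
      exact this.trans bot_le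
    · -- `T` is a `q`-group, `q ≠ t`, inside `V Y`: its image in `Q / V` is trivial
      have h1 : T.map (QuotientGroup.mk' V) ≤ Y.map (QuotientGroup.mk' V) := by
        have := Subgroup.map_mono (f := QuotientGroup.mk' V) hTK
        rw [Subgroup.map_sup] at this
        have hV0 : V.map (QuotientGroup.mk' V) = ⊥ := by
          rw [← le_bot_iff, Subgroup.map_le_iff_le_comap]
          intro v hv
          rw [Subgroup.mem_comap, Subgroup.mem_bot, QuotientGroup.mk'_apply,
            QuotientGroup.eq_one_iff]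
          exact hv
        rwa [hV0, bot_sup_eq] at this
      have h2 : Disjoint (T.map (QuotientGroup.mk' V)) (Y.map (QuotientGroup.mk' V)) :=
        IsPGroup.disjoint_of_ne (q : ℕ) t hqt _ _ (hTp.map _) (hY.map _)
      have h3 : T.map (QuotientGroup.mk' V) = ⊥ := by
        rw [← le_bot_iff]
        exact h2 le_rfl h1
      intro x hx
      have h4 : QuotientGroup.mk' V x ∈ T.map (QuotientGroup.mk' V) :=
        Subgroup.mem_map_of_mem _ hx
      rw [h3, Subgroup.mem_bot, QuotientGroup.mk'_apply, QuotientGroup.eq_one_iff] at h4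
      exact h4
  have hcop : (Nat.card (V ⊔ Y : Subgroup Q)).Coprime (Nat.card R) := by
    have h1 : Nat.card (V ⊔ Y : Subgroup Q) ∣ Nat.card V * Nat.card Y := by
      have := Cfsg.Agent.H40.card_sup_dvd_mul Y V
      rwa [sup_comm, mul_comm] at this
    have h2 : (Nat.card V * Nat.card Y).Coprime r := by
      apply Nat.Coprime.mul_left
      · exact ((Nat.Prime.coprime_iff_not_dvd hr).mpr hrV).symm
      · obtain ⟨k, hk⟩ := IsPGroup.iff_card.mp hY
        rw [hk]
        exact Nat.Coprime.pow_left k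
          ((Nat.coprime_primes (Fact.out : t.Prime) hr).mpr (Ne.symm hrt))
    exact (h2.coprime_dvd_left h1).coprime_dvd_right hRr
  have hmain := Cfsg.Agent.S1445.result hodd (V ⊔ Y) R htop hcop
    (fun x hx hx1 => by rw [centralizer_singleton_eq_of_card_dvd_prime hr hRr hx hx1])
    (by
      rw [← le_bot_iff, ← hVR]
      exact inf_le_inf_right _ hF)
  exact (Subgroup.commutator_mono le_sup_right le_rfl).trans (hmain.trans hF)

end faithful

section transfer

variable {G : Type u} [Group G]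

theorem mem_normalizer_of_conj_mem {H : Subgroup G} {g : G} (h1 : ∀ x ∈ H, g * x * g⁻¹ ∈ H)
    (h2 : ∀ x ∈ H, g⁻¹ * x * g ∈ H) : g ∈ normalizer (H : Set G) := by
  rw [Subgroup.mem_normalizer_iff]
  intro x
  refine ⟨h1 x, fun hx => ?_⟩
  have := h2 _ hx
  simpa [mul_assoc] using this

theorem conj_mem_of_normalizer {H : Subgroup G} {g : G} (hg : g ∈ normalizer (H : Set G))
    {x : G} (hx : x ∈ H) : g * x * g⁻¹ ∈ H :=
  (Subgroup.mem_normalizer_iff.mp hg x).mp hx

theorem conj_inv_mem_of_normalizer {H : Subgroup G} {g : G} (hg : g ∈ normalizer (H : Set G))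
    {x : G} (hx : x ∈ H) : g⁻¹ * x * g ∈ H := by
  have := (Subgroup.mem_normalizer_iff.mp ((normalizer (H : Set G)).inv_mem hg) x).mp hx
  simpa using this

theorem le_normalizer_sup_of_le {A U V : Subgroup G} (hU : A ≤ normalizer (U : Set G))
    (hV : A ≤ normalizer (V : Set G)) : A ≤ normalizer ((U ⊔ V : Subgroup G) : Set G) := by
  have key : ∀ a : G, a ∈ normalizer (U : Set G) → a ∈ normalizer (V : Set G) →
      ∀ x ∈ U ⊔ V, a * x * a⁻¹ ∈ U ⊔ V := by
    intro a haU haV x hx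
    have hle : U ⊔ V ≤ (U ⊔ V).comap (MulAut.conj a).toMonoidHom := by
      apply sup_le
      · intro u hu
        rw [Subgroup.mem_comap]
        exact (le_sup_left : U ≤ U ⊔ V) (by simpa using conj_mem_of_normalizer haU hu)
      · intro v hv
        rw [Subgroup.mem_comap]
        exact (le_sup_right : V ≤ U ⊔ V) (by simpa using conj_mem_of_normalizer haV hv)
    simpa using hle hx
  intro a ha
  apply mem_normalizer_of_conj_mem
  · exact key a (hU ha) (hV ha)
  · intro x hx
    have := key a⁻¹ ((normalizer (U : Set G)).inv_mem (hU ha))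
      ((normalizer (V : Set G)).inv_mem (hV ha)) x hx
    simpa using this

theorem le_normalizer_inf_of_le {A U V : Subgroup G} (hU : A ≤ normalizer (U : Set G))
    (hV : A ≤ normalizer (V : Set G)) : A ≤ normalizer ((U ⊓ V : Subgroup G) : Set G) := by
  intro a ha
  apply mem_normalizer_of_conj_mem
  · intro x hx
    exact ⟨conj_mem_of_normalizer (hU ha) hx.1, conj_mem_of_normalizer (hV ha) hx.2⟩
  · intro x hx
    exact ⟨conj_inv_mem_of_normalizer (hU ha) hx.1, conj_inv_mem_of_normalizer (hV ha) hx.2⟩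

theorem normalizer_le_normalizer_centralizer_self (V : Subgroup G) :
    normalizer (V : Set G) ≤ normalizer ((centralizer (V : Set G) : Subgroup G) : Set G) := by
  have key : ∀ a : G, a ∈ normalizer (V : Set G) → ∀ x ∈ centralizer (V : Set G),
      a * x * a⁻¹ ∈ centralizer (V : Set G) := by
    intro a ha x hx
    rw [Subgroup.mem_centralizer_iff] at hx ⊢
    intro v hv
    have h1 := hx _ (conj_inv_mem_of_normalizer ha hv)
    have h2 : v * (a * x * a⁻¹) = a * ((a⁻¹ * v * a) * x) * a⁻¹ := by group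
    have h3 : a * x * a⁻¹ * v = a * (x * (a⁻¹ * v * a)) * a⁻¹ := by group
    rw [h2, h3, h1]
  intro a ha
  apply mem_normalizer_of_conj_mem
  · exact key a ha
  · intro x hx
    have := key a⁻¹ ((normalizer (V : Set G)).inv_mem ha) x hx
    simpa using this

/-- (FPF) The fixed-point-free commutator lemma. -/
theorem fpfComm [Finite G] (hodd : Odd (Nat.card G)) : StFpfComm G := by
  intro V Y R t _ hVnil hY hRp hYV hRV hRY htV hrV hrt hVR
  have hVY : V ⊓ Y = ⊥ := inf_eq_bot_of_pgroup_not_dvd hY htV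
  obtain ⟨N, hN⟩ : ∃ N : Subgroup G, N = Y ⊓ centralizer (V : Set G) := ⟨_, rfl⟩
  have hNY : N ≤ Y := hN ▸ inf_le_left
  have hNC : N ≤ centralizer (V : Set G) := hN ▸ inf_le_right
  have hVN : V ⊓ N = ⊥ := by
    rw [← le_bot_iff, ← hVY]
    exact inf_le_inf_left _ hNY
  obtain ⟨X, hX⟩ : ∃ X : Subgroup G, X = (V ⊔ Y) ⊔ R := ⟨_, rfl⟩
  have hVX : V ≤ X := hX ▸ le_sup_left.trans le_sup_left
  have hYX : Y ≤ X := hX ▸ le_sup_right.trans le_sup_left
  have hRX : R ≤ X := hX ▸ le_sup_right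
  have hNX : N ≤ X := hNY.trans hYX
  have hRK : R ≤ normalizer ((V ⊔ Y : Subgroup G) : Set G) := le_normalizer_sup_of_le hRV hRY
  have hXV : X ≤ normalizer (V : Set G) := hX ▸ sup_le (sup_le le_normalizer hYV) hRV
  have hXK : X ≤ normalizer ((V ⊔ Y : Subgroup G) : Set G) := hX ▸ sup_le le_normalizer hRK
  have hXN : X ≤ normalizer (N : Set G) := by
    rw [hX, hN]
    refine sup_le (sup_le ?_ ?_) ?_
    · intro v hv
      have hc : ∀ n ∈ Y ⊓ centralizer (V : Set G), ∀ w ∈ V, w * n * w⁻¹ = n := by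
        intro n hn w hw
        have := (Subgroup.mem_centralizer_iff.mp hn.2) w hw
        rw [this]; group
      apply mem_normalizer_of_conj_mem
      · intro n hn
        rw [hc n hn v hv]; exact hn
      · intro n hn
        have := hc n hn v⁻¹ (V.inv_mem hv)
        rw [inv_inv] at this
        rw [this]; exact hn
    · exact le_normalizer_inf_of_le le_normalizer
        (hYV.trans (normalizer_le_normalizer_centralizer_self V))
    · exact le_normalizer_inf_of_le hRY
        (hRV.trans (normalizer_le_normalizer_centralizer_self V))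
  -- `X` is solvable of odd order
  haveI hXs : Group.IsSolvable X := by
    rw [hX]
    have hVs : Group.IsSolvable V := inferInstance
    have hYs : Group.IsSolvable Y := by
      haveI := hY.isNilpotent
      infer_instance
    have hRs : Group.IsSolvable R := by
      haveI : Fact (Nat.card R).Prime := ⟨hRp⟩
      haveI : IsCyclic R := isCyclic_of_prime_card (p := Nat.card R) rfl
      have hc : IsMulCommutative R := IsCyclic.isMulCommutative
      exact Group.isSolvable_of_comm (fun a b => hc.1.1 a b)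
    exact Cfsg.Agent.H58.isSolvable_sup hRK (Cfsg.Agent.H58.isSolvable_sup hYV hVs hYs) hRs
  haveI hNn : (N.subgroupOf X).Normal :=
    (Subgroup.normal_subgroupOf_iff_le_normalizer hNX).mpr hXN
  have hoddQ : Odd (Nat.card (↥X ⧸ N.subgroupOf X)) :=
    Odd.of_dvd_nat hodd ((Subgroup.card_quotient_dvd_card _).trans (Subgroup.card_subgroup_dvd_card X))
  obtain ⟨π, hπ⟩ : ∃ π : ↥X →* ↥X ⧸ N.subgroupOf X, π = QuotientGroup.mk' (N.subgroupOf X) :=
    ⟨_, rfl⟩
  have hπs : Function.Surjective π := hπ ▸ QuotientGroup.mk'_surjective _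
  have hπeq : ∀ a b : ↥X, π a = π b → (a : G)⁻¹ * b ∈ N := by
    intro a b hab
    rw [hπ, QuotientGroup.mk'_apply, QuotientGroup.mk'_apply, QuotientGroup.eq] at hab
    exact hab
  have hπ1 : ∀ a : ↥X, (a : G) ∈ N → π a = 1 := by
    intro a ha
    rw [hπ, QuotientGroup.mk'_apply, QuotientGroup.eq_one_iff]
    exact ha
  have hcardV : Nat.card (V.subgroupOf X) = Nat.card V :=
    Nat.card_congr (Subgroup.subgroupOfEquivOfLe hVX).toEquiv
  have hcardR : Nat.card (R.subgroupOf X) = Nat.card R :=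
    Nat.card_congr (Subgroup.subgroupOfEquivOfLe hRX).toEquiv
  haveI hVn' : ((V.subgroupOf X).map π).Normal :=
    ((Subgroup.normal_subgroupOf_iff_le_normalizer hVX).mpr hXV).map π hπs
  haveI hKn' : ((V.subgroupOf X).map π ⊔ (Y.subgroupOf X).map π).Normal := by
    rw [← Subgroup.map_sup, ← Subgroup.subgroupOf_sup hVX hYX]
    exact ((Subgroup.normal_subgroupOf_iff_le_normalizer (sup_le hVX hYX)).mpr hXK).map π hπs
  have htop : ((V.subgroupOf X).map π ⊔ (Y.subgroupOf X).map π) ⊔ (R.subgroupOf X).map π = ⊤ := by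
    rw [← Subgroup.map_sup, ← Subgroup.map_sup, ← Subgroup.subgroupOf_sup hVX hYX,
      ← Subgroup.subgroupOf_sup (sup_le hVX hYX) hRX, ← hX, Subgroup.subgroupOf_self,
      Subgroup.map_top_of_surjective π hπs]
  have hY' : IsPGroup t ((Y.subgroupOf X).map π) := (hY.comap_subtype).map π
  have htV' : ¬ t ∣ Nat.card ((V.subgroupOf X).map π) := fun h =>
    htV (hcardV ▸ h.trans (Subgroup.card_map_dvd _ π))
  have hrV' : ¬ Nat.card R ∣ Nat.card ((V.subgroupOf X).map π) := fun h =>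
    hrV (hcardV ▸ h.trans (Subgroup.card_map_dvd _ π))
  have hRr' : Nat.card ((R.subgroupOf X).map π) ∣ Nat.card R :=
    hcardR ▸ Subgroup.card_map_dvd _ π
  have hVR' : (V.subgroupOf X).map π ⊓
      centralizer (((R.subgroupOf X).map π : Subgroup (↥X ⧸ N.subgroupOf X)) : Set _) = ⊥ := by
    rw [eq_bot_iff]
    rintro x ⟨⟨a, ha, rfl⟩, hxc⟩
    have haV : (a : G) ∈ V := ha
    rw [Subgroup.mem_bot]
    have hac : (a : G) ∈ centralizer (R : Set G) := by
      rw [Subgroup.mem_centralizer_iff]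
      intro ρ hρ
      have h1 := (Subgroup.mem_centralizer_iff.mp hxc) (π ⟨ρ, hRX hρ⟩)
        (Subgroup.mem_map_of_mem π (show (⟨ρ, hRX hρ⟩ : ↥X) ∈ R.subgroupOf X from hρ))
      rw [← map_mul, ← map_mul] at h1
      have h2 := hπeq _ _ h1
      have h3 : ((ρ * (a : G))⁻¹ * ((a : G) * ρ)) ∈ V := by
        have : (ρ * (a : G))⁻¹ * ((a : G) * ρ) = (a : G)⁻¹ * (ρ⁻¹ * (a : G) * ρ) := by group
        rw [this]
        exact V.mul_mem (V.inv_mem haV) (conj_inv_mem_of_normalizer (hRV hρ) haV)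
      have h4 : ((ρ * (a : G))⁻¹ * ((a : G) * ρ)) ∈ V ⊓ N := ⟨h3, h2⟩
      rw [hVN, Subgroup.mem_bot, inv_mul_eq_one] at h4
      exact h4
    have h5 : (a : G) ∈ V ⊓ centralizer (R : Set G) := ⟨haV, hac⟩
    rw [hVR, Subgroup.mem_bot] at h5
    have : a = 1 := Subtype.ext h5
    rw [this, map_one]
  have hYV' : (Y.subgroupOf X).map π ⊓
      centralizer (((V.subgroupOf X).map π : Subgroup (↥X ⧸ N.subgroupOf X)) : Set _) = ⊥ := by
    rw [eq_bot_iff]
    rintro x ⟨⟨a, ha, rfl⟩, hxc⟩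
    have haY : (a : G) ∈ Y := ha
    rw [Subgroup.mem_bot]
    apply hπ1
    rw [hN]
    refine ⟨haY, ?_⟩
    show (a : G) ∈ centralizer (V : Set G)
    rw [Subgroup.mem_centralizer_iff]
    intro v hv
    have h1 := (Subgroup.mem_centralizer_iff.mp hxc) (π ⟨v, hVX hv⟩)
      (Subgroup.mem_map_of_mem π (show (⟨v, hVX hv⟩ : ↥X) ∈ V.subgroupOf X from hv))
    rw [← map_mul, ← map_mul] at h1
    have h2 := hπeq _ _ h1
    have h3 : ((v * (a : G))⁻¹ * ((a : G) * v)) ∈ V := by
      have : (v * (a : G))⁻¹ * ((a : G) * v) = ((a : G)⁻¹ * v⁻¹ * (a : G)) * v := by group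
      rw [this]
      exact V.mul_mem (conj_inv_mem_of_normalizer (hYV haY) (V.inv_mem hv)) hv
    have h4 : ((v * (a : G))⁻¹ * ((a : G) * v)) ∈ V ⊓ N := ⟨h3, h2⟩
    rw [hVN, Subgroup.mem_bot, inv_mul_eq_one] at h4
    exact h4
  have hmain := fpf_faithful hoddQ ((V.subgroupOf X).map π) ((Y.subgroupOf X).map π)
    ((R.subgroupOf X).map π) htop t hY' htV' (Nat.card R) hRp hRr' hrV' hrt hVR' hYV'
  rw [Subgroup.commutator_le]
  intro y hy ρ hρ
  have hcY : ⁅y, ρ⁆ ∈ Y := by
    have : ⁅y, ρ⁆ = y * (ρ * y⁻¹ * ρ⁻¹) := by rw [commutatorElement_def]; group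
    rw [this]
    exact Y.mul_mem hy (conj_mem_of_normalizer (hRY hρ) (Y.inv_mem hy))
  have h1 : π (⁅(⟨y, hYX hy⟩ : ↥X), (⟨ρ, hRX hρ⟩ : ↥X)⁆) ∈ (V.subgroupOf X).map π := by
    apply hmain
    rw [map_commutatorElement]
    exact Subgroup.commutator_mem_commutator
      (Subgroup.mem_map_of_mem π (show (⟨y, hYX hy⟩ : ↥X) ∈ Y.subgroupOf X from hy))
      (Subgroup.mem_map_of_mem π (show (⟨ρ, hRX hρ⟩ : ↥X) ∈ R.subgroupOf X from hρ))
  obtain ⟨c, hc, hce⟩ := h1
  have hcV : (c : G) ∈ V := hc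
  have h2 := hπeq _ _ hce
  have h3 : ((⁅(⟨y, hYX hy⟩ : ↥X), (⟨ρ, hRX hρ⟩ : ↥X)⁆ : ↥X) : G) = ⁅y, ρ⁆ := rfl
  rw [h3] at h2
  have h4 : (c : G) ∈ Y := by
    have : (c : G) = ⁅y, ρ⁆ * ((c : G)⁻¹ * ⁅y, ρ⁆)⁻¹ := by group
    rw [this]
    exact Y.mul_mem hcY (Y.inv_mem (hNY h2))
  have h5 : (c : G) ∈ V ⊓ Y := ⟨hcV, h4⟩
  rw [hVY, Subgroup.mem_bot] at h5
  rw [h5, inv_one, one_mul] at h2
  exact hNC h2

end transfer

end Cfsg.Agent.H29.BG117
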