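import Mathlib
import Cfsg.Agent.H13.FitInt
import Cfsg.Agent.H58.Sig2
import Cfsg.Agent.Lib.Helper30.PiCore
import Cfsg.Agent.H29.BG117Defs
import Cfsg.Agent.H29.BG117Fpf

set_option autoImplicit false

/-!
# B&G 11.7, Step 3 (piece NT): a normal `t`-subgroup not centralized by `A` (helper29)
-/

namespace Cfsg.Agent.H29.BG117

open Cfsg Subgroup Cfsg.Agent.H58.BG10 Cfsg.Agent.H63.BG11
open scoped commutatorElement

universe u

variable {G : Type u} [Group G]

/-- `[U, V] ≤ U` when `V` normalizes `U`. -/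
theorem commutator_le_left_of_le_normalizer {U V : Subgroup G}
    (h : V ≤ normalizer (U : Set G)) : ⁅U, V⁆ ≤ U := by
  rw [Subgroup.commutator_le]
  intro u hu v hv
  have : ⁅u, v⁆ = u * (v * u⁻¹ * v⁻¹) := by rw [commutatorElement_def]; group
  rw [this]
  exact U.mul_mem hu (conj_mem_of_normalizer (h hv) (U.inv_mem hu))

/-- `A` normalizes `[U, V]` when it normalizes `U` and `V`. -/
theorem le_normalizer_commutator_of_le {A U V : Subgroup G} (hU : A ≤ normalizer (U : Set G))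
    (hV : A ≤ normalizer (V : Set G)) : A ≤ normalizer ((⁅U, V⁆ : Subgroup G) : Set G) := by
  have key : ∀ a : G, a ∈ normalizer (U : Set G) → a ∈ normalizer (V : Set G) →
      ∀ x ∈ ⁅U, V⁆, a * x * a⁻¹ ∈ ⁅U, V⁆ := by
    intro a haU haV x hx
    have h1 : (MulAut.conj a).toMonoidHom x ∈ (⁅U, V⁆ : Subgroup G).map (MulAut.conj a).toMonoidHom :=
      Subgroup.mem_map_of_mem _ hx
    rw [Subgroup.map_commutator] at h1
    have hUa : U.map (MulAut.conj a).toMonoidHom ≤ U := by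
      rintro _ ⟨u, hu, rfl⟩
      simpa using conj_mem_of_normalizer haU hu
    have hVa : V.map (MulAut.conj a).toMonoidHom ≤ V := by
      rintro _ ⟨v, hv, rfl⟩
      simpa using conj_mem_of_normalizer haV hv
    have h2 := Subgroup.commutator_mono hUa hVa h1
    simpa using h2
  intro a ha
  apply mem_normalizer_of_conj_mem
  · exact key a (hU ha) (hV ha)
  · intro x hx
    have := key a⁻¹ ((normalizer (U : Set G)).inv_mem (hU ha))
      ((normalizer (V : Set G)).inv_mem (hV ha)) x hx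
    simpa using this

/-- Coprime action: if `A` (a `p`-group) normalizes the `s`-group `Y`, `s ≠ p`, and centralizes
`[Y, A]`, then `A` centralizes `Y`. -/
theorem le_centralizer_of_commutator_le_centralizer {Y A : Subgroup G} {s p : ℕ}
    [Fact s.Prime] [Fact p.Prime] (hsp : s ≠ p) (hY : IsPGroup s Y) (hA : IsPGroup p A)
    (hAY : A ≤ normalizer (Y : Set G)) (h : ⁅Y, A⁆ ≤ centralizer (A : Set G)) :
    Y ≤ centralizer (A : Set G) := by
  intro y hy
  rw [Subgroup.mem_centralizer_iff]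
  intro a ha
  obtain ⟨c, hc⟩ : ∃ c : G, c = ⁅y, a⁆ := ⟨_, rfl⟩
  have hcm : c ∈ ⁅Y, A⁆ := hc ▸ Subgroup.commutator_mem_commutator hy ha
  have hcY : c ∈ Y := commutator_le_left_of_le_normalizer hAY hcm
  have hca : a * c = c * a := (Subgroup.mem_centralizer_iff.mp (h hcm)) a ha
  have h1 : a * y⁻¹ = y⁻¹ * c * a := by
    rw [hc, commutatorElement_def]; group
  have hpow : ∀ k : ℕ, a ^ k * y⁻¹ = y⁻¹ * c ^ k * a ^ k := by
    intro k
    induction k with
    | zero => simp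
    | succ k ih =>
      have hck : a * c ^ k = c ^ k * a := ((Commute.pow_right (show Commute a c from hca) k)).eq
      calc a ^ (k + 1) * y⁻¹ = a * (a ^ k * y⁻¹) := by rw [pow_succ']; group
        _ = a * (y⁻¹ * c ^ k * a ^ k) := by rw [ih]
        _ = (a * y⁻¹) * c ^ k * a ^ k := by group
        _ = y⁻¹ * c * (a * c ^ k) * a ^ k := by rw [h1]; group
        _ = y⁻¹ * c * (c ^ k * a) * a ^ k := by rw [hck]
        _ = y⁻¹ * c ^ (k + 1) * a ^ (k + 1) := by rw [pow_succ' c k, pow_succ' a k]; group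
  have h2 := hpow (orderOf a)
  rw [pow_orderOf_eq_one, one_mul, mul_one] at h2
  have h3 : c ^ orderOf a = 1 := by
    have := congrArg (fun z => y * z) h2
    simpa using this.symm
  have h4 : orderOf c ∣ orderOf a := orderOf_dvd_of_pow_eq_one h3
  obtain ⟨i, hi⟩ := hA ⟨a, ha⟩
  obtain ⟨j, hj⟩ := hY ⟨c, hcY⟩
  have hai : orderOf a ∣ p ^ i := orderOf_dvd_of_pow_eq_one (by simpa using congrArg Subtype.val hi)
  have hcj : orderOf c ∣ s ^ j := orderOf_dvd_of_pow_eq_one (by simpa using congrArg Subtype.val hj)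
  have hcop : (s ^ j).Coprime (p ^ i) :=
    Nat.Coprime.pow _ _ ((Nat.coprime_primes (Fact.out : s.Prime) (Fact.out : p.Prime)).mpr hsp)
  have h5 : orderOf c = 1 :=
    Nat.eq_one_of_dvd_coprimes hcop hcj (h4.trans hai)
  have h6 : c = 1 := orderOf_eq_one_iff.mp h5
  rw [h6, commutatorElement_def] at hc
  have := congrArg (fun z => z * a * y) hc
  simpa [mul_assoc] using this

/-- `D` normalizes `O_q(D)`. -/
theorem le_normalizer_opInt (q : ℕ) (D : Subgroup G) :
    D ≤ normalizer ((Cfsg.Agent.H13.FitInt.opInt q D : Subgroup G) : Set G) := by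
  rw [Subgroup.le_normalizer_iff]
  intro d hd k hk
  obtain ⟨y, hy, rfl⟩ := Subgroup.mem_map.mp hk
  refine Subgroup.mem_map.mpr ⟨⟨d, hd⟩ * y * ⟨d, hd⟩⁻¹, ?_, rfl⟩
  exact (Cfsg.Agent.H13.pCore_normal q ↥D).conj_mem y hy ⟨d, hd⟩

/-- A `q`-subgroup of `D` normalized by `D` lies in `O_q(D)`. -/
theorem le_opInt_of_le_normalizer {q : ℕ} {D L : Subgroup G} (hLD : L ≤ D)
    (hn : D ≤ normalizer (L : Set G)) (hL : IsPGroup q L) :
    L ≤ Cfsg.Agent.H13.FitInt.opInt q D := by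
  have hnorm : (L.subgroupOf D).Normal :=
    (Subgroup.normal_subgroupOf_iff_le_normalizer hLD).mpr hn
  have hle : L.subgroupOf D ≤ Cfsg.pCore q ↥D :=
    Cfsg.Agent.H13.le_pCore hnorm hL.comap_subtype
  intro l hl
  exact Subgroup.mem_map.mpr ⟨⟨l, hLD hl⟩, hle (Subgroup.mem_subgroupOf.mpr hl), rfl⟩

/-- `O_q(D)` is characteristic: whatever normalizes `D` normalizes `O_q(D)`. -/
theorem normalizer_le_normalizer_opInt (q : ℕ) (D : Subgroup G) :
    normalizer (D : Set G) ≤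
      normalizer ((Cfsg.Agent.H13.FitInt.opInt q D : Subgroup G) : Set G) := by
  have key : ∀ g : G, g ∈ normalizer (D : Set G) →
      ∀ x ∈ Cfsg.Agent.H13.FitInt.opInt q D, g * x * g⁻¹ ∈ Cfsg.Agent.H13.FitInt.opInt q D := by
    intro g hg x hx
    have hLD : (Cfsg.Agent.H13.FitInt.opInt q D).map (MulAut.conj g).toMonoidHom ≤ D := by
      rintro _ ⟨u, hu, rfl⟩
      simpa using conj_mem_of_normalizer hg (Cfsg.Agent.H13.FitInt.opInt_le q D hu)
    have hn : D ≤ normalizer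
        (((Cfsg.Agent.H13.FitInt.opInt q D).map (MulAut.conj g).toMonoidHom : Subgroup G) :
          Set G) := by
      rw [Subgroup.le_normalizer_iff]
      rintro d hd _ ⟨u, hu, rfl⟩
      refine ⟨(g⁻¹ * d * g) * u * (g⁻¹ * d * g)⁻¹, ?_, ?_⟩
      · exact conj_mem_of_normalizer
          (le_normalizer_opInt q D (conj_inv_mem_of_normalizer hg hd)) hu
      · simp only [MulEquiv.coe_toMonoidHom, MulAut.conj_apply]
        group
    have hp : IsPGroup q ((Cfsg.Agent.H13.FitInt.opInt q D).map (MulAut.conj g).toMonoidHom) :=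
      (Cfsg.Agent.H13.FitInt.opInt_isPGroup q D).map _
    have := le_opInt_of_le_normalizer hLD hn hp (Subgroup.mem_map_of_mem _ hx)
    simpa using this
  intro g hg
  apply mem_normalizer_of_conj_mem
  · exact key g hg
  · intro x hx
    have := key g⁻¹ ((normalizer (D : Set G)).inv_mem hg) x hx
    simpa using this

/-- (NT) B&G 11.7, Step 3. -/
theorem excNT [Finite G] (hG : IsMinSimpleOddOrder G) (hF : StExcFacts G) (hC : StExcComm G) :
    StExcNT G := by
  intro M A A₀ p _ hE s _ hsσ hsp Y hYM hYs hAY hYA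
  by_contra hcon
  have hM := hE.coatom
  have hfacts := hF M A A₀ p hE
  have hAp : IsPGroup p A := IsPGroup.of_card hE.card
  have hpp : p.Prime := Fact.out
  have hsp' : s.Prime := Fact.out
  -- `K = O_{p'}(M)`
  obtain ⟨K, hK⟩ : ∃ K : Subgroup G, K = piCoreOf (primesNotDvd (Nat.card A)) M := ⟨_, rfl⟩
  have hKM : K ≤ M := hK ▸ Cfsg.Agent.Lib.Helper30.piCoreOf_le _ _
  have hMK : M ≤ normalizer (K : Set G) := hK ▸ Cfsg.Agent.Lib.Helper30.le_normalizer_piCoreOf _ _
  have hKcop : (Nat.card K).Coprime (Nat.card A) :=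
    hK ▸ (Cfsg.Agent.Lib.Helper30.piCoreOf_isPi _ _).coprime
  have hKp : ¬ p ∣ Nat.card K := by
    intro h
    rw [hE.card] at hKcop
    have h2 : p ∣ Nat.gcd (Nat.card K) (p ^ 2) := Nat.dvd_gcd h (dvd_pow_self p (by norm_num))
    rw [hKcop] at h2
    exact hpp.one_lt.ne' (Nat.dvd_one.mp h2)
  have hinv : ∀ Z : Subgroup G, Z ≤ M → IsPGroup s Z → A ≤ normalizer (Z : Set G) → Z ≤ K := by
    intro Z hZM hZs hAZ
    have h1 := hfacts.th.2.2 M hM.1 hE.le
    rw [hK, ← h1]
    apply le_sSup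
    refine ⟨hZM, ?_, hAZ⟩
    intro q hq hqZ
    refine ⟨hq, ?_⟩
    obtain ⟨k, hk⟩ := IsPGroup.iff_card.mp hZs
    rw [hk] at hqZ
    have hqs : q = s := (Nat.prime_dvd_prime_iff_eq hq hsp').mp (hq.dvd_of_dvd_pow hqZ)
    rw [hE.card, hqs]
    intro h
    exact hsp ((Nat.prime_dvd_prime_iff_eq hsp' hpp).mp (hsp'.dvd_of_dvd_pow h))
  -- `D = C_K(M_σ)`
  obtain ⟨D, hD⟩ : ∃ D : Subgroup G, D = K ⊓ centralizer (sigmaCore M : Set G) := ⟨_, rfl⟩
  have hDK : D ≤ K := hD ▸ inf_le_left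
  have hDC : D ≤ centralizer (sigmaCore M : Set G) := hD ▸ inf_le_right
  have hDM : D ≤ M := hDK.trans hKM
  have hMσn : M ≤ normalizer (sigmaCore M : Set G) :=
    Cfsg.Agent.Lib.Helper30.le_normalizer_piCoreOf (sigma M) M
  have hMD : M ≤ normalizer (D : Set G) :=
    hD ▸ le_normalizer_inf_of_le hMK
      (hMσn.trans (normalizer_le_normalizer_centralizer_self _))
  have hAD : A ≤ normalizer (D : Set G) := hE.le.trans hMD
  haveI hDs : Group.IsSolvable D := by
    haveI := hG.2.2.2 M hM.1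
    exact Group.isSolvable_of_isSolvable_injective (Subgroup.inclusion_injective hDM)
  have hDp : ¬ p ∣ Nat.card D := fun h => hKp (h.trans (Subgroup.card_dvd_of_le hDK))
  -- the cores `O_q(D)`
  have hOle : ∀ q : ℕ, Cfsg.Agent.H13.FitInt.opInt q D ≤ D :=
    fun q => Cfsg.Agent.H13.FitInt.opInt_le q D
  have hOp : ∀ q : ℕ, IsPGroup q (Cfsg.Agent.H13.FitInt.opInt q D) :=
    fun q => Cfsg.Agent.H13.FitInt.opInt_isPGroup q D
  have hOn : ∀ q : ℕ, M ≤ normalizer ((Cfsg.Agent.H13.FitInt.opInt q D : Subgroup G) : Set G) :=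
    fun q => hMD.trans (normalizer_le_normalizer_opInt q D)
  have hσ : ∀ q : Nat.Primes, (q : ℕ) ∈ sigma M →
      Cfsg.Agent.H13.FitInt.opInt (q : ℕ) D ≤ sigmaCore M := by
    intro q hq
    refine Cfsg.Agent.Lib.Helper30.le_piCoreOf ((hOle q).trans hDM) (hOn q) ?_
    intro r hr hrd
    haveI : Fact (q : ℕ).Prime := ⟨q.2⟩
    obtain ⟨k, hk⟩ := IsPGroup.iff_card.mp (hOp (q : ℕ))
    rw [hk] at hrd
    have : r = (q : ℕ) := (Nat.prime_dvd_prime_iff_eq hr q.2).mp (hr.dvd_of_dvd_pow hrd)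
    rw [this]
    exact hq
  have hnσ : ∀ q : Nat.Primes, (q : ℕ) ∉ sigma M →
      Cfsg.Agent.H13.FitInt.opInt (q : ℕ) D ≤ centralizer (A : Set G) := by
    intro q hq
    by_contra hnc
    apply hcon
    refine ⟨(q : ℕ), Cfsg.Agent.H13.FitInt.opInt (q : ℕ) D, q.2, hq, ?_, (hOle q).trans hDM,
      hOn q, hOp q, (hOle q).trans hDC, hnc⟩
    intro hqp
    apply hnc
    have hbot : Cfsg.Agent.H13.FitInt.opInt (q : ℕ) D = ⊥ := by
      rw [hqp]
      have h1 : Cfsg.Agent.H13.FitInt.opInt p D ⊓ D = ⊥ :=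
        inf_eq_bot_of_pgroup_not_dvd (hOp p) hDp |> fun h => by rw [inf_comm]; exact h
      rw [← h1]
      exact (inf_eq_left.mpr (hOle p)).symm
    rw [hbot]
    exact bot_le
  -- `[D, A]` centralizes every `O_q(D)`
  have hDA : ⁅D, A⁆ ≤ D := commutator_le_left_of_le_normalizer hAD
  have hcomm : ∀ q : Nat.Primes,
      ⁅D, A⁆ ≤ centralizer ((Cfsg.Agent.H13.FitInt.opInt (q : ℕ) D : Subgroup G) : Set G) := by
    intro q
    by_cases hq : (q : ℕ) ∈ sigma M
    · exact hDA.trans (hDC.trans (Subgroup.centralizer_le (hσ q hq)))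
    · have hA := hnσ q hq
      have hDn := le_normalizer_opInt (q : ℕ) D
      rw [Subgroup.commutator_le]
      intro d hd a ha
      rw [Subgroup.mem_centralizer_iff]
      intro n hn
      -- `a` centralizes `n` and `d⁻¹ n d`
      have h1 : a * n = n * a := ((Subgroup.mem_centralizer_iff.mp (hA hn)) a ha)
      have hn' : d⁻¹ * n * d ∈ Cfsg.Agent.H13.FitInt.opInt (q : ℕ) D :=
        conj_inv_mem_of_normalizer (hDn hd) hn
      have h2 : a * (d⁻¹ * n * d) = (d⁻¹ * n * d) * a :=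
        ((Subgroup.mem_centralizer_iff.mp (hA hn')) a ha)
      have h1' : a⁻¹ * n * a = n := by rw [mul_assoc, ← h1]; group
      have h2' : a * (d⁻¹ * n * d) * a⁻¹ = d⁻¹ * n * d := by rw [h2]; group
      have e1 : ⁅d, a⁆ * n = d * (a * (d⁻¹ * (a⁻¹ * n * a) * d) * a⁻¹) * d⁻¹ * ⁅d, a⁆ := by
        rw [commutatorElement_def]; group
      rw [e1, h1', h2']
      group
  have hfit : ⁅D, A⁆ ≤ Cfsg.fittingOf D := by
    refine le_trans ?_ (Cfsg.Agent.H13.FitInt.centralizer_fittingOf_le D)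
    refine le_inf hDA ?_
    rw [Cfsg.Agent.H13.FitInt.fittingOf_eq_iSup, Subgroup.le_centralizer_iff]
    exact iSup_le (fun q => Subgroup.le_centralizer_iff.mp (hcomm q))
  have hfit2 : Cfsg.fittingOf D ≤ (sigmaCore M ⊓ D) ⊔ (D ⊓ centralizer (A : Set G)) := by
    rw [Cfsg.Agent.H13.FitInt.fittingOf_eq_iSup]
    apply iSup_le
    intro q
    by_cases hq : (q : ℕ) ∈ sigma M
    · exact le_sup_of_le_left (le_inf (hσ q hq) (hOle q))
    · exact le_sup_of_le_right (le_inf (hOle q) (hnσ q hq))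
  -- `[Y, A]` lies in `D`
  have hAY1 : A ≤ normalizer ((⁅Y, A⁆ : Subgroup G) : Set G) :=
    le_normalizer_commutator_of_le hAY le_normalizer
  have hY1Y : ⁅Y, A⁆ ≤ Y := commutator_le_left_of_le_normalizer hAY
  have hY1s : IsPGroup s (⁅Y, A⁆ : Subgroup G) := hYs.to_le hY1Y
  have hY1D : ⁅Y, A⁆ ≤ D := by
    rw [hD]
    exact le_inf (hinv _ (hY1Y.trans hYM) hY1s hAY1) (hC M A A₀ p hE s hsσ hsp Y hYM hYs hAY)
  have hY2Y : ⁅⁅Y, A⁆, A⁆ ≤ Y := (commutator_le_left_of_le_normalizer hAY1).trans hY1Y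
  have hsn : ¬ s ∣ Nat.card (sigmaCore M) := fun h =>
    hsσ (Cfsg.Agent.Lib.Helper30.piCoreOf_isPi (sigma M) M s hsp' h)
  have hY2c : ⁅⁅Y, A⁆, A⁆ ≤ centralizer (A : Set G) := by
    intro y hy
    have hyF := hfit2 (hfit (Subgroup.commutator_mono hY1D le_rfl hy))
    have hnn : D ⊓ centralizer (A : Set G) ≤ normalizer ((sigmaCore M ⊓ D : Subgroup G) : Set G) :=
      inf_le_left.trans (le_normalizer_inf_of_le (hDM.trans hMσn) le_normalizer)
    obtain ⟨z, hz, c, hc, rfl⟩ := Cfsg.Agent.H58.mem_sup_of_le_normalizer hnn hyF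
    have hzc : Commute z c := by
      have := (Subgroup.mem_centralizer_iff.mp (hDC hc.1)) z hz.1
      exact this
    have hpow : (z * c) ^ Nat.card (sigmaCore M) = c ^ Nat.card (sigmaCore M) := by
      rw [hzc.mul_pow]
      have : z ^ Nat.card (sigmaCore M) = 1 := by
        have h2 := congrArg Subtype.val (pow_card_eq_one' (G := sigmaCore M) (x := ⟨z, hz.1⟩))
        rw [Subgroup.coe_pow, Subgroup.coe_one] at h2
        exact h2
      rw [this, one_mul]
    obtain ⟨j, hj⟩ := hYs ⟨z * c, hY2Y hy⟩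
    have hord : orderOf (z * c) ∣ s ^ j :=
      orderOf_dvd_of_pow_eq_one (by simpa using congrArg Subtype.val hj)
    have hcop : (Nat.card (sigmaCore M)).Coprime (orderOf (z * c)) := by
      refine Nat.Coprime.coprime_dvd_right hord ?_
      exact Nat.Coprime.pow_right j (((Nat.Prime.coprime_iff_not_dvd hsp').mpr hsn).symm)
    obtain ⟨m, hm⟩ := exists_pow_eq_self_of_coprime hcop
    rw [← hm, hpow]
    exact Subgroup.pow_mem _ (Subgroup.pow_mem _ hc.2 _) _
  have hY1c : ⁅Y, A⁆ ≤ centralizer (A : Set G) :=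
    le_centralizer_of_commutator_le_centralizer hsp hY1s hAp hAY1 hY2c
  exact hYA (le_centralizer_of_commutator_le_centralizer hsp hYs hAp hAY hY1c)

end Cfsg.Agent.H29.BG117
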