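import Mathlib
import Cfsg.Agent.H63.BG11Main
import Cfsg.Agent.H29.BG117Defs
import Cfsg.Agent.H29.BG117Fpf
import Cfsg.Agent.H29.BG117NT
import Cfsg.Agent.H40.BG117Comm
import Cfsg.Agent.H40.BG117Two
import Cfsg.Agent.H40.BG117Normal
import Cfsg.Agent.H60.BG117Star
import Cfsg.Agent.Helper55.BG117ClaimD
import Cfsg.Agent.H92.BG12Sig
import Cfsg.Agent.H31.BG117T1
import Cfsg.Agent.H31.BG117T2
import Cfsg.Agent.H37.BG117Fin
import Cfsg.Agent.H37.BG12Tr

set_option autoImplicit false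

/-!
# B&G 11.7 (`M_σ A ⊴ M` under Hypothesis 11.1): assembly of the pieces (helper29)

Everything here is proved from `IsMinSimpleOddOrder G` and the statement (Ω)
(`StExcOmega G`: the Sylow `p`-subgroups of an exceptional maximal subgroup are abelian with
`Ω₁ = A`).  Pieces: helper92 (SIG), helper55 (D), helper40 (TWO, COMM, NORMAL), helper31 (T1, T2),
helper37 (FIN), helper60 (STAR), helper29 (FPF, NT).
-/

namespace Cfsg.Agent.H29.BG117

open Cfsg Subgroup Cfsg.Agent.H58.BG10 Cfsg.Agent.H63.BG11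

universe u

variable {G : Type u} [Group G] [Finite G]

theorem stSigNe (hG : IsMinSimpleOddOrder G) : StSigNe G :=
  Cfsg.Agent.H92.BG12.sigNe hG (st1405 hG) (st1350 hG)

theorem stClaimD (hG : IsMinSimpleOddOrder G) : StClaimD G :=
  Cfsg.Agent.Helper55.BG117.stClaimD hG

theorem stFpfComm (hG : IsMinSimpleOddOrder G) : StFpfComm G :=
  fpfComm hG.1

theorem stCentT (hG : IsMinSimpleOddOrder G) : StCentT G :=
  Cfsg.Agent.H37.BG117.centT hG (st1405 hG) (st1410 hG) (st1411 hG)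
    (Cfsg.Agent.H37.BG12.st1394 hG) (Cfsg.Agent.H37.BG12.st1395 hG)

theorem stExcTwoFree_of (hG : IsMinSimpleOddOrder G) (hΩ : StExcOmega G) : StExcTwoFree G :=
  Cfsg.Agent.H40.BG117.excTwoFree hG (stExcTI hG) hΩ

theorem stExcComm_of (hG : IsMinSimpleOddOrder G) (hΩ : StExcOmega G) : StExcComm G :=
  Cfsg.Agent.H40.BG117.excComm hG (st1350 hG) (stExcNilp hG) (stExcTwoFree_of hG hΩ)
    (stFpfComm hG)

theorem stExcNT_of (hG : IsMinSimpleOddOrder G) (hΩ : StExcOmega G) : StExcNT G :=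
  excNT hG (stExcFacts hG) (stExcComm_of hG hΩ)

theorem stExcT1_of (hG : IsMinSimpleOddOrder G) (hΩ : StExcOmega G) : StExcT1 G :=
  Cfsg.Agent.H31.BG117.excT1 hG (st1403 hG) (st1408 hG) (st1409 hG) (stSigNe hG) (stClaimD hG) hΩ

theorem stExcT2_of (hG : IsMinSimpleOddOrder G) (hΩ : StExcOmega G) : StExcT2 G :=
  Cfsg.Agent.H31.BG117.excT2 hG (st1403 hG) (st1405 hG) (st1410 hG) (stSigNe hG) (stClaimD hG) hΩ
    (stExcComm_of hG hΩ)

/-- (*) from (Ω). -/
theorem stExcStar_of (hG : IsMinSimpleOddOrder G) (hΩ : StExcOmega G) : StExcStar G :=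
  Cfsg.Agent.H60.BG117.excStar (st1409 hG) (stExcFacts hG) (stExcNT_of hG hΩ) (stExcT1_of hG hΩ)
    (stExcT2_of hG hΩ) (stCentT hG)

/-- B&G 11.7 from (Ω). -/
theorem stExcNormal_of (hG : IsMinSimpleOddOrder G) (hΩ : StExcOmega G) : StExcNormal G :=
  Cfsg.Agent.H40.BG117N.excNormal hG (st1350 hG) (st1410 hG) (stExcFacts hG) hΩ
    (stExcStar_of hG hΩ)

end Cfsg.Agent.H29.BG117
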