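import Cfsg.Agent.H59.JzKillDefs
import Cfsg.Agent.H12.JzOut1
import Cfsg.Agent.H82.JtDich

/-!
# JZ-KILL (S2951 / S2952): K-TI from K-CENT, K-NV and `L`-conjugacy into `C_G(J(S))`  (helper29)

`StConjCJ`: in the situation (R), every element of `V = Ω₁Z(O₂(L))` is `L`-conjugate into
`C_G(J(S))` (the first half of the SR-route proof of K-CENT).  Then `V` is a TI-subgroup:
for `1 ≠ u ∈ V ⊓ V^g`, `u = g v g⁻¹`, `C_G(v) ≤ L` and `k u k⁻¹ ∈ C_G(J(S))` with `k ∈ L` give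
`J(S) ≤ L^(kg)`, a 2-local subgroup, so `L^(kg) ≤ L`, hence `= L` and `k g ∈ N_G(L) = L`.
-/

set_option autoImplicit false
open Cfsg

namespace Cfsg.Agent.H29.Jk

open Cfsg.Agent.H64.Jz Cfsg.Agent.H59.JzK

universe u

/-- every element of `V` is `L`-conjugate into `C_G(J(S))` -/
def StConjCJ : Prop := ∀ {G : Type u} [Group G] [Finite G] (S : Sylow 2 G)
    (M K L T' K' L' : Subgroup G), RCtx S M K L T' K' L' →
  ∀ u ∈ Vof L, ∃ k ∈ L, k * u * k⁻¹ ∈
    Subgroup.centralizer (thompsonSubgroupOf 2 (S : Subgroup G) : Set G)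

/-- **K-TI** from K-CENT, K-NV and `StConjCJ`. -/
theorem kTI_of (hC : StConjCJ.{u}) (hCent : StKCent.{u}) (hNV : StKNV.{u}) : StKTI.{u} := by
  intro G _ _ S M K L T' K' L' hR ha g hg
  have hNVeq : Subgroup.normalizer (Vof L : Set G) = L := hNV S M K L T' K' L' hR
  have H1 := hCent S M K L T' K' L' hR ha
  obtain ⟨hB, hX, -, -⟩ := id hR
  obtain ⟨-, -, -, -, -, -, -, hLmax, -⟩ := hB
  obtain ⟨⟨u, hu⟩, hu1⟩ := Subgroup.ne_bot_iff_exists_ne_one.mp hg
  have hu1' : u ≠ 1 := fun h => hu1 (Subtype.ext h)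
  obtain ⟨v, hv, hvu⟩ := Subgroup.mem_map.mp hu.2
  have hvu' : g * v * g⁻¹ = u := by simpa [MulAut.conj_apply] using hvu
  have hv1 : v ≠ 1 := by
    rintro rfl
    apply hu1'
    rw [← hvu']; group
  have hCv : Subgroup.centralizer ({v} : Set G) ≤ L := by
    have := H1 v hv hv1
    rwa [hNVeq] at this
  obtain ⟨k, hk, hkc⟩ := hC S M K L T' K' L' hR u hu.1
  have hJX : thompsonSubgroupOf 2 (S : Subgroup G) ≤
      L.map (MulAut.conj (k * g)).toMonoidHom := by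
    intro j hj
    rw [Cfsg.Agent.H82.Jt.mem_conj]
    apply hCv
    rw [Subgroup.mem_centralizer_singleton_iff]
    have h1 : j * (k * u * k⁻¹) = (k * u * k⁻¹) * j :=
      Subgroup.mem_centralizer_iff.mp hkc j hj
    rw [← hvu'] at h1
    calc (k * g)⁻¹ * j * (k * g) * v
        = (k * g)⁻¹ * (j * (k * (g * v * g⁻¹) * k⁻¹)) * (k * g) := by group
      _ = (k * g)⁻¹ * ((k * (g * v * g⁻¹) * k⁻¹) * j) * (k * g) := by rw [h1]
      _ = v * ((k * g)⁻¹ * j * (k * g)) := by group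
  have hXloc : IsTwoLocal (L.map (MulAut.conj (k * g)).toMonoidHom) :=
    Cfsg.Agent.H12.Jz.isTwoLocal_conj (k * g) hLmax.1
  have hXL := hX _ hXloc hJX
  have hXeq : L.map (MulAut.conj (k * g)).toMonoidHom = L :=
    Subgroup.eq_of_le_of_card_ge hXL
      (by rw [Subgroup.card_map_of_injective (MulAut.conj (k * g)).injective])
  have hkg : k * g ∈ L := Cfsg.Agent.H12.Jz.mem_of_map_conj_eq hLmax hXeq
  have hgL : g ∈ L := by
    have : g = k⁻¹ * (k * g) := by group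
    rw [this]
    exact L.mul_mem (L.inv_mem hk) hkg
  rw [hNVeq]
  exact hgL

example : (StConjCJ.{u} → StKCent.{u} → StKNV.{u} → StKTI.{u}) := kTI_of

end Cfsg.Agent.H29.Jk

#print axioms Cfsg.Agent.H29.Jk.kTI_of
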