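import Mathlib

/-!
# S2953, residual configuration (R1), sub-case `V ⊄ Q₁`: abstract core

Parallel take on helper1's `r1_out` (same statement).  `Q₁ ≤ T'` of index 2 (`T' = Q₁ ∪ Q₁ v`),
`v` an involution with `[Q₁, v] ≤ ⟨z⟩`, `z ∈ Z(T') ∩ Q₁`, `k` of order 3 normalizing `Q₁` and
not centralizing `z`, `v` inverting `k` modulo `Q₁`, `s` normalizing `T'` with `v^s ∈ v⟨z⟩`.
Then `s` normalizes `Q₁`.

Proof: `z₁ = z^k`, `z₂ = z^(k⁻¹) = z₁ z` are central involutions of `Q₁`, swapped by `v`.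
With `v₁ = v^k`, the elements of `Q₁` commuting with `v₁` form a subgroup containing all squares
and commutators of `Q₁` but not `z`.  Hence every involution `t` of `T'` not commuting with `v`
lies in `Q₁` and `C_{T'}(t) ≤ Q₁`; apply this to `t = z₁^s`.
-/

set_option autoImplicit false

namespace Cfsg.Agent.H29.R1

universe u

theorem r1_out_core {G : Type u} [Group G] (T' Q₁ : Subgroup G) (z v k s : G)
    (hQT : Q₁ ≤ T') (hvT : v ∈ T')
    (hTQv : ∀ t ∈ T', t ∈ Q₁ ∨ t * v ∈ Q₁) (hv2 : v * v = 1) (hz2 : z * z = 1) (hzQ : z ∈ Q₁)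
    (hzT : ∀ t ∈ T', t * z = z * t)
    (hQv : ∀ q ∈ Q₁, v * q * v⁻¹ = q ∨ v * q * v⁻¹ = q * z) (hk3 : k ^ 3 = 1)
    (hkz : k * z * k⁻¹ ≠ z) (hkQ : ∀ q ∈ Q₁, k * q * k⁻¹ ∈ Q₁)
    (hvk' : v * k * v⁻¹ * k ∈ Q₁)
    (hsT : ∀ t ∈ T', s * t * s⁻¹ ∈ T') (hsv : s * v * s⁻¹ = v ∨ s * v * s⁻¹ = v * z) :
    ∀ q ∈ Q₁, s * q * s⁻¹ ∈ Q₁ := by
  have hkkk : k * k * k = 1 := by simpa [pow_succ] using hk3
  have hk2' : k * k = k⁻¹ := eq_inv_of_mul_eq_one_left hkkk
  have hk2 : k⁻¹ * k⁻¹ = k := by rw [← mul_inv_rev, hk2', inv_inv]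
  have hkQ' : ∀ q ∈ Q₁, k⁻¹ * q * k ∈ Q₁ := by
    intro q hq
    have h1 := hkQ _ (hkQ q hq)
    have e : k⁻¹ * q * k = k * (k * q * k⁻¹) * k⁻¹ := by
      calc k⁻¹ * q * k = (k * k) * q * (k⁻¹ * k⁻¹) := by rw [hk2', hk2]
        _ = k * (k * q * k⁻¹) * k⁻¹ := by group
    rw [e]; exact h1
  obtain ⟨z1, hz1⟩ : ∃ z1, z1 = k * z * k⁻¹ := ⟨_, rfl⟩
  obtain ⟨z2, hz2'⟩ : ∃ z2, z2 = k⁻¹ * z * k := ⟨_, rfl⟩
  have hz1Q : z1 ∈ Q₁ := by rw [hz1]; exact hkQ z hzQ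
  have hz1sq : z1 * z1 = 1 := by
    rw [hz1]
    calc k * z * k⁻¹ * (k * z * k⁻¹) = k * (z * z) * k⁻¹ := by group
      _ = 1 := by rw [hz2]; group
  have hz1c : ∀ q ∈ Q₁, q * z1 = z1 * q := by
    intro q hq
    have h := hzT _ (hQT (hkQ' q hq))
    rw [hz1]
    calc q * (k * z * k⁻¹) = k * (k⁻¹ * q * k * z) * k⁻¹ := by group
      _ = k * (z * (k⁻¹ * q * k)) * k⁻¹ := by rw [h]
      _ = k * z * k⁻¹ * q := by group
  have hz2c : ∀ q ∈ Q₁, q * z2 = z2 * q := by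
    intro q hq
    have h := hzT _ (hQT (hkQ q hq))
    rw [hz2']
    calc q * (k⁻¹ * z * k) = k⁻¹ * (k * q * k⁻¹ * z) * k := by group
      _ = k⁻¹ * (z * (k * q * k⁻¹)) * k := by rw [h]
      _ = k⁻¹ * z * k * q := by group
  have hvz : v * z * v⁻¹ = z := by
    have h := hzT v hvT
    rw [h]; group
  have hvz1 : v * z1 * v⁻¹ = z2 := by
    have hq0 := hz2c _ hvk'
    rw [hz1]
    calc v * (k * z * k⁻¹) * v⁻¹ = (v * k * v⁻¹) * (v * z * v⁻¹) * (v * k * v⁻¹)⁻¹ := by group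
      _ = (v * k * v⁻¹) * z * (v * k * v⁻¹)⁻¹ := by rw [hvz]
      _ = (v * k * v⁻¹ * k) * (k⁻¹ * z * k) * (v * k * v⁻¹ * k)⁻¹ := by group
      _ = (v * k * v⁻¹ * k) * z2 * (v * k * v⁻¹ * k)⁻¹ := by rw [hz2']
      _ = z2 := by rw [hq0]; group
  have e2 : k * z1 * k⁻¹ = z2 := by
    rw [hz1, hz2']
    calc k * (k * z * k⁻¹) * k⁻¹ = (k * k) * z * (k⁻¹ * k⁻¹) := by group
      _ = k⁻¹ * z * k := by rw [hk2', hk2]
  have hz21 : z2 ≠ z1 := by
    intro h
    apply hkz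
    have e1 : z = k * z2 * k⁻¹ := by rw [hz2']; group
    calc k * z * k⁻¹ = z1 := hz1.symm
      _ = z2 := h.symm
      _ = k * z1 * k⁻¹ := e2.symm
      _ = k * z2 * k⁻¹ := by rw [h]
      _ = z := e1.symm
  have hz2eq : z2 = z1 * z := by
    rcases hQv z1 hz1Q with h | h
    · exact absurd (hvz1.symm.trans h) hz21
    · exact hvz1.symm.trans h
  have hz1ne : z1 ≠ 1 := by
    intro h
    apply hkz
    have hz' : z = 1 := by
      have e : z = k⁻¹ * z1 * k := by rw [hz1]; group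
      rw [e, h]; group
    rw [hz']; group
  obtain ⟨v1, hv1⟩ : ∃ v1, v1 = k * v * k⁻¹ := ⟨_, rfl⟩
  have hv1Q : ∀ q ∈ Q₁, v1 * q * v1⁻¹ = q ∨ v1 * q * v1⁻¹ = q * z1 := by
    intro q hq
    have e : v1 * q * v1⁻¹ = k * (v * (k⁻¹ * q * k) * v⁻¹) * k⁻¹ := by rw [hv1]; group
    rcases hQv _ (hkQ' q hq) with h | h
    · left; rw [e, h]; group
    · right; rw [e, h, hz1]; group
  have hv1z : v1 * z * v1⁻¹ = z2 := by
    have hvz2 : v * z2 * v⁻¹ = z1 := by
      calc v * z2 * v⁻¹ = v * (z1 * z) * v⁻¹ := by rw [hz2eq]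
        _ = (v * z1 * v⁻¹) * (v * z * v⁻¹) := by group
        _ = z2 * z := by rw [hvz1, hvz]
        _ = z1 * (z * z) := by rw [hz2eq]; group
        _ = z1 := by rw [hz2]; group
    calc v1 * z * v1⁻¹ = k * (v * (k⁻¹ * z * k) * v⁻¹) * k⁻¹ := by rw [hv1]; group
      _ = k * (v * z2 * v⁻¹) * k⁻¹ := by rw [hz2']
      _ = k * z1 * k⁻¹ := by rw [hvz2]
      _ = z2 := e2
  -- the subgroup of elements commuting with `v1`
  have hodd : ∀ a ∈ Q₁, a ∉ Subgroup.centralizer ({v1} : Set G) → v1 * a * v1⁻¹ = a * z1 := by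
    intro a ha hne
    rcases hv1Q a ha with h | h
    · exfalso; apply hne
      rw [Subgroup.mem_centralizer_singleton_iff]
      symm
      calc v1 * a = (v1 * a * v1⁻¹) * v1 := by group
        _ = a * v1 := by rw [h]
    · exact h
  have hC2 : ∀ a ∈ Q₁, ∀ b ∈ Q₁, a ∉ Subgroup.centralizer ({v1} : Set G) →
      b ∉ Subgroup.centralizer ({v1} : Set G) →
      a * b ∈ Subgroup.centralizer ({v1} : Set G) := by
    intro a ha b hb hna hnb
    have h1 := hodd a ha hna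
    have h2 := hodd b hb hnb
    have h3 := hz1c b hb
    rw [Subgroup.mem_centralizer_singleton_iff]
    symm
    calc v1 * (a * b) = (v1 * a * v1⁻¹) * (v1 * b * v1⁻¹) * v1 := by group
      _ = a * z1 * (b * z1) * v1 := by rw [h1, h2]
      _ = a * (z1 * b) * z1 * v1 := by group
      _ = a * (b * z1) * z1 * v1 := by rw [h3]
      _ = a * b * (z1 * z1) * v1 := by group
      _ = a * b * v1 := by rw [hz1sq]; group
  have hC3 : ∀ q ∈ Q₁, q * q ∈ Subgroup.centralizer ({v1} : Set G) := by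
    intro q hq
    by_cases h : q ∈ Subgroup.centralizer ({v1} : Set G)
    · exact Subgroup.mul_mem _ h h
    · exact hC2 q hq q hq h h
  have hC4 : ∀ q ∈ Q₁, ∀ t ∈ Q₁,
      q * t * q⁻¹ * t⁻¹ ∈ Subgroup.centralizer ({v1} : Set G) := by
    intro q hq t ht
    have e : q * t * q⁻¹ * t⁻¹ = (q * t) * (q⁻¹ * t⁻¹) := by group
    rw [e]
    by_cases h1 : q ∈ Subgroup.centralizer ({v1} : Set G) <;>
      by_cases h2 : t ∈ Subgroup.centralizer ({v1} : Set G)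
    · exact Subgroup.mul_mem _ (Subgroup.mul_mem _ h1 h2)
        (Subgroup.mul_mem _ (Subgroup.inv_mem _ h1) (Subgroup.inv_mem _ h2))
    · have h3 : q * t ∉ Subgroup.centralizer ({v1} : Set G) := fun h =>
        h2 (by simpa using Subgroup.mul_mem _ (Subgroup.inv_mem _ h1) h)
      have h4 : q⁻¹ * t⁻¹ ∉ Subgroup.centralizer ({v1} : Set G) := fun h =>
        h2 (by simpa using Subgroup.inv_mem _ (Subgroup.mul_mem _ h1 h))
      exact hC2 _ (Q₁.mul_mem hq ht) _ (Q₁.mul_mem (Q₁.inv_mem hq) (Q₁.inv_mem ht)) h3 h4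
    · have h3 : q * t ∉ Subgroup.centralizer ({v1} : Set G) := fun h =>
        h1 (by simpa using Subgroup.mul_mem _ h (Subgroup.inv_mem _ h2))
      have h4 : q⁻¹ * t⁻¹ ∉ Subgroup.centralizer ({v1} : Set G) := fun h =>
        h1 (by simpa using Subgroup.inv_mem _ (Subgroup.mul_mem _ h h2))
      exact hC2 _ (Q₁.mul_mem hq ht) _ (Q₁.mul_mem (Q₁.inv_mem hq) (Q₁.inv_mem ht)) h3 h4
    · have h3 : q * t ∈ Subgroup.centralizer ({v1} : Set G) := hC2 q hq t ht h1 h2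
      have h4 : q⁻¹ * t⁻¹ ∈ Subgroup.centralizer ({v1} : Set G) :=
        hC2 _ (Q₁.inv_mem hq) _ (Q₁.inv_mem ht)
          (fun h => h1 (by simpa using Subgroup.inv_mem _ h))
          (fun h => h2 (by simpa using Subgroup.inv_mem _ h))
      exact Subgroup.mul_mem _ h3 h4
  have hC5 : z ∉ Subgroup.centralizer ({v1} : Set G) := by
    intro h
    rw [Subgroup.mem_centralizer_singleton_iff] at h
    apply hz1ne
    have e : v1 * z * v1⁻¹ = z := by rw [← h]; group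
    rw [hv1z, hz2eq] at e
    simpa using e
  have hstar : ∀ t ∈ T', t * t = 1 → t * v ≠ v * t → ∀ x ∈ T', x * t = t * x → x ∈ Q₁ := by
    intro t ht ht2 htv x hx hxt
    have htQ : t ∈ Q₁ := by
      rcases hTQv t ht with h | h
      · exact h
      · exfalso
        rcases hQv _ h with h5 | h5
        · apply htv
          have h6 : v * t = t * v := by
            calc v * t = v * (t * v) * v⁻¹ := by group
              _ = t * v := h5
          exact h6.symm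
        · have h6 : v * t = t * v * z := by
            calc v * t = v * (t * v) * v⁻¹ := by group
              _ = t * v * z := h5
          have h7 : (t * v) * (t * v) = z := by
            calc (t * v) * (t * v) = t * (v * t) * v := by group
              _ = t * (t * v * z) * v := by rw [h6]
              _ = (t * t) * v * (z * v) := by group
              _ = v * (z * v) := by rw [ht2, one_mul]
              _ = v * (v * z) := by rw [← hzT v hvT]
              _ = (v * v) * z := by group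
              _ = z := by rw [hv2, one_mul]
          exact hC5 (by rw [← h7]; exact hC3 _ h)
    have hvt : v * t * v⁻¹ = t * z := by
      rcases hQv t htQ with h | h
      · exfalso; apply htv
        calc t * v = (v * t * v⁻¹) * v := by rw [h]
          _ = v * t := by group
      · exact h
    by_contra hxQ
    rcases hTQv x hx with h | h
    · exact hxQ h
    · have h9 : x * t * x⁻¹ = t := by rw [hxt]; group
      have h10 : x * z * x⁻¹ = z := by rw [hzT x hx]; group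
      have h8 : (x * v) * t * (x * v)⁻¹ * t⁻¹ = z := by
        calc (x * v) * t * (x * v)⁻¹ * t⁻¹ = x * (v * t * v⁻¹) * x⁻¹ * t⁻¹ := by group
          _ = x * (t * z) * x⁻¹ * t⁻¹ := by rw [hvt]
          _ = (x * t * x⁻¹) * (x * z * x⁻¹) * t⁻¹ := by group
          _ = t * z * t⁻¹ := by rw [h9, h10]
          _ = z := by rw [hzT t ht]; group
      exact hC5 (by rw [← h8]; exact hC4 _ h t htQ)
  intro q hq
  have ht : s * z1 * s⁻¹ ∈ T' := hsT z1 (hQT hz1Q)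
  have ht2 : (s * z1 * s⁻¹) * (s * z1 * s⁻¹) = 1 := by
    calc (s * z1 * s⁻¹) * (s * z1 * s⁻¹) = s * (z1 * z1) * s⁻¹ := by group
      _ = 1 := by rw [hz1sq]; group
  have hz1v : z1 * v ≠ v * z1 := by
    intro h
    have h' : z2 = z1 := by
      calc z2 = v * z1 * v⁻¹ := hvz1.symm
        _ = z1 * v * v⁻¹ := by rw [h]
        _ = z1 := by group
    exact hz21 h'
  have htv : (s * z1 * s⁻¹) * v ≠ v * (s * z1 * s⁻¹) := by
    intro h
    apply hz1v
    have h3 : (s * z1 * s⁻¹) * (s * v * s⁻¹) = (s * v * s⁻¹) * (s * z1 * s⁻¹) := by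
      rcases hsv with h1 | h1
      · rw [h1]; exact h
      · rw [h1]
        calc (s * z1 * s⁻¹) * (v * z) = ((s * z1 * s⁻¹) * v) * z := by group
          _ = v * (s * z1 * s⁻¹) * z := by rw [h]
          _ = v * ((s * z1 * s⁻¹) * z) := by group
          _ = v * (z * (s * z1 * s⁻¹)) := by rw [hzT _ ht]
          _ = v * z * (s * z1 * s⁻¹) := by group
    calc z1 * v = s⁻¹ * ((s * z1 * s⁻¹) * (s * v * s⁻¹)) * s := by group
      _ = s⁻¹ * ((s * v * s⁻¹) * (s * z1 * s⁻¹)) * s := by rw [h3]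
      _ = v * z1 := by group
  have hxq : (s * q * s⁻¹) * (s * z1 * s⁻¹) = (s * z1 * s⁻¹) * (s * q * s⁻¹) := by
    calc (s * q * s⁻¹) * (s * z1 * s⁻¹) = s * (q * z1) * s⁻¹ := by group
      _ = s * (z1 * q) * s⁻¹ := by rw [hz1c q hq]
      _ = (s * z1 * s⁻¹) * (s * q * s⁻¹) := by group
  exact hstar _ ht ht2 htv _ (hsT q (hQT hq)) hxq

/-- helper1's exact shape (post 11052). -/
theorem r1_out {G : Type u} [Group G] [Finite G] (T' Q₁ K' O : Subgroup G) (z v k s : G)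
    (hQT : Q₁ ≤ T') (hT2 : IsPGroup 2 ↥T') (hvT : v ∈ T') (hvQ : v ∉ Q₁)
    (hTQv : ∀ t ∈ T', t ∈ Q₁ ∨ t * v ∈ Q₁) (hv2 : v * v = 1) (hz2 : z * z = 1) (hzQ : z ∈ Q₁)
    (hzT : ∀ t ∈ T', t * z = z * t)
    (hQv : ∀ q ∈ Q₁, v * q * v⁻¹ = q ∨ v * q * v⁻¹ = q * z) (hkK : k ∈ K') (hk3 : k ^ 3 = 1)
    (hkz : k * z * k⁻¹ ≠ z) (hkQ : ∀ q ∈ Q₁, k * q * k⁻¹ ∈ Q₁) (hOQ : O ≤ Q₁)
    (hKO : ∀ g ∈ K', ∃ o ∈ O, ∃ i : ℕ, g = o * k ^ i)
    (hKgen : Subgroup.closure {g : G | g ∈ K' ∧ Odd (orderOf g)} = K')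
    (hvk : v * k * v⁻¹ ∈ K') (hvk' : v * k * v⁻¹ * k ∈ Q₁)
    (hsT : ∀ t ∈ T', s * t * s⁻¹ ∈ T') (hsv : s * v * s⁻¹ = v ∨ s * v * s⁻¹ = v * z) :
    ∀ q ∈ Q₁, s * q * s⁻¹ ∈ Q₁ :=
  r1_out_core T' Q₁ z v k s hQT hvT hTQv hv2 hz2 hzQ hzT hQv hk3 hkz hkQ hvk' hsT hsv

end Cfsg.Agent.H29.R1

#print axioms Cfsg.Agent.H29.R1.r1_out
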