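import Mathlib
import Cfsg.Agent.H29.BG117Main
import Cfsg.Agent.H63.BG117OmegaMain

set_option autoImplicit false

/-!
# B&G 11.7 (`M_σ A ⊴ M` under Hypothesis 11.1), unconditionally (helper29)
-/

namespace Cfsg.Agent.H29.BG117

open Cfsg Subgroup Cfsg.Agent.H58.BG10 Cfsg.Agent.H63.BG11

universe u

variable {G : Type u} [Group G] [Finite G]

/-- (Ω) -/
theorem stExcOmega (hG : IsMinSimpleOddOrder G) : StExcOmega G :=
  Cfsg.Agent.H63.BG11.stExcOmega hG

theorem stExcTwoFree (hG : IsMinSimpleOddOrder G) : StExcTwoFree G :=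
  stExcTwoFree_of hG (stExcOmega hG)

theorem stExcComm (hG : IsMinSimpleOddOrder G) : StExcComm G :=
  stExcComm_of hG (stExcOmega hG)

theorem stExcNT (hG : IsMinSimpleOddOrder G) : StExcNT G :=
  stExcNT_of hG (stExcOmega hG)

theorem stExcT1 (hG : IsMinSimpleOddOrder G) : StExcT1 G :=
  stExcT1_of hG (stExcOmega hG)

theorem stExcT2 (hG : IsMinSimpleOddOrder G) : StExcT2 G :=
  stExcT2_of hG (stExcOmega hG)

/-- (*): `A` centralizes the `A`-invariant `(σ(M) ∪ {p})'`-subgroups of `M`. -/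
theorem stExcStar (hG : IsMinSimpleOddOrder G) : StExcStar G :=
  stExcStar_of hG (stExcOmega hG)

/-- B&G 11.7: `M_σ A ⊴ M` under Hypothesis 11.1. -/
theorem stExcNormal (hG : IsMinSimpleOddOrder G) : StExcNormal G :=
  stExcNormal_of hG (stExcOmega hG)

end Cfsg.Agent.H29.BG117
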