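import Mathlib
import Cfsg.Agent.Lib.Helper30.BG134Defs
import Cfsg.Agent.H57.BG134RDefs

set_option autoImplicit false
set_option linter.style.haveILetI false
set_option linter.unusedVariables false

/-!
# S1428 (B&G 13.4): adapters between the two families of `Prop`s for Lemma R (helper29)

* `lemR_of_lr`: helper30's `StLR` (hypothesis `C_H(X) ≤ L`) implies helper57's/helper90's `StLemR`
  (hypothesis `N_G(Q) ≤ L`).
* `lw_of_core`: helper57's pure `StCore` implies helper30's `StLW`.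
-/

namespace Cfsg.Agent.H29.BG134

open Cfsg Subgroup Cfsg.Agent.H58.BG10

universe u

variable {G : Type u} [Group G]

/-- helper30's `StLR` implies helper57's `StLemR`. -/
theorem lemR_of_lr (hLR : Cfsg.Agent.Lib.Helper30.BG134.StLR G) :
    Cfsg.Agent.H57.BG134R.StLemR G := by
  intro H hH r hr R hRH hRcard q hq hqr hqα Q hQ1 hQq hQH hRQ hfree L hL hLH hNL
  have hCL : H ⊓ centralizer (Q : Set G) ≤ L :=
    inf_le_right.trans ((Subgroup.centralizer_le_normalizer _).trans hNL)
  by_cases hα : alphaCore H = ⊥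
  · refine ⟨?_, fun h => absurd hα h⟩
    rw [hα, bot_inf_eq, bot_inf_eq]
  · obtain ⟨h1, h2⟩ := hLR H L R Q r q hH hr hRH hRcard hq hqα hQH hQq hQ1 hRQ hfree hL hLH
      hCL hα
    exact ⟨h2, fun _ => h1⟩

/-- helper57's `StCore` implies helper30's `StLW`. -/
theorem lw_of_core [Finite G] (hCore : Cfsg.Agent.H57.BG134R.StCore G) :
    Cfsg.Agent.Lib.Helper30.BG134.StLW G := by
  intro K R T q t hq ht ht2 hqt hKq hRprime hRq hRt hTt hTrk hRK hfree hKT hRT hcycR hcycK
  by_contra hne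
  have hcop : (Nat.card K).Coprime (Nat.card T) := by
    haveI : Fact q.Prime := ⟨hq⟩
    haveI : Fact t.Prime := ⟨ht⟩
    obtain ⟨a, ha⟩ := IsPGroup.iff_card.mp hKq
    obtain ⟨b, hb⟩ := IsPGroup.iff_card.mp hTt
    rw [ha, hb]
    exact Nat.Coprime.pow a b ((Nat.coprime_primes hq ht).mpr hqt)
  have h2 := (hCore T K R t (Nat.card R) ht hTt hKT hRT hRK hRprime rfl hRt hfree hcop).2
    hcycK hcycR hne
  -- `T = C_T(K)` is cyclic, against `T` of rank at least 3
  have hTeq : T ⊓ centralizer (K : Set G) = T := inf_eq_left.mpr h2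
  rw [hTeq] at hcycK
  apply hTrk
  intro A hA hAt
  haveI : IsCyclic ↥A := Subgroup.isCyclic A
  have h3 : Monoid.exponent ↥A ∣ t := Monoid.exponent_dvd_of_forall_pow_eq_one (fun a => by
    have h4 := hAt a a.2
    exact Subtype.ext h4)
  rw [IsCyclic.exponent_eq_card] at h3
  have h5 : Nat.card ↥A ≤ t := Nat.le_of_dvd ht.pos h3
  calc Nat.card ↥A ≤ t := h5
    _ = t ^ 1 := (pow_one t).symm
    _ ≤ t ^ 2 := Nat.pow_le_pow_right ht.pos (by norm_num)

example (hLR : Cfsg.Agent.Lib.Helper30.BG134.StLR G) : Cfsg.Agent.H57.BG134R.StLemR G :=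
  lemR_of_lr hLR

example [Finite G] (hCore : Cfsg.Agent.H57.BG134R.StCore G) :
    Cfsg.Agent.Lib.Helper30.BG134.StLW G := lw_of_core hCore

end Cfsg.Agent.H29.BG134
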