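import Mathlib
import Cfsg.Agent.Lib.Helper30.BG134Defs
import Cfsg.Agent.H92.BG123
import Cfsg.Agent.H58.FrobWielandt
import Cfsg.Agent.H29.Basic

set_option autoImplicit false
set_option linter.style.haveILetI false
set_option linter.unusedVariables false

/-!
# Bender–Glauberman Theorem 13.4 (S1428), piece BG134-LR (helper29, for helper30)

B&G 13.1(a) / 12.18(a): `H` maximal, `r ∈ τ₁(H)`, `R ≤ H` of order `r`, `q ∉ α(H)`, `X ≠ 1` a
`q`-subgroup of `H` normalized by `R` with `C_X(R) = 1`, `L ≠ H` maximal over `C_H(X)`,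
`H_α ≠ 1`.  Then `C_{H_α}(R) ≠ 1` and `C_{H_α}(X R) = 1`.
-/

namespace Cfsg.Agent.H29.BG134

open Cfsg Subgroup Cfsg.Agent.H58.BG10 Cfsg.Agent.Lib.Helper30.BG134

universe u

variable {G : Type u} [Group G]

/-- A large elementary abelian subgroup inside `K` bounds the `p`-rank of `K` from below. -/
theorem not_pRankLE_of_sub {K B : Subgroup G} {s k : ℕ} (hBK : B ≤ K)
    (hBc : ∀ a ∈ B, ∀ b ∈ B, a * b = b * a) (hBs : ∀ a ∈ B, a ^ s = 1)
    (hcard : s ^ k < Nat.card B) : ¬ PRankLE s k K := by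
  intro h
  have h1 := h (B.subgroupOf K)
    ⟨⟨fun a b => Subtype.ext (Subtype.ext
      (hBc _ (Subgroup.mem_subgroupOf.mp a.2) _ (Subgroup.mem_subgroupOf.mp b.2)))⟩⟩
    (fun a ha => Subtype.ext (hBs _ (Subgroup.mem_subgroupOf.mp ha)))
  rw [Nat.card_congr (Subgroup.subgroupOfEquivOfLe hBK).toEquiv] at h1
  omega

/-- The centralizer of a cyclic subgroup is the centralizer of its generator. -/
theorem centralizer_zpowers' (x : G) :
    centralizer ((zpowers x : Subgroup G) : Set G) = centralizer ({x} : Set G) := by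
  ext g
  rw [mem_centralizer_iff, mem_centralizer_iff]
  constructor
  · intro h y hy
    rw [Set.mem_singleton_iff] at hy
    subst hy
    exact h _ (mem_zpowers _)
  · intro h y hy
    obtain ⟨k, rfl⟩ := mem_zpowers_iff.mp hy
    have h1 : Commute x g := h x rfl
    exact (h1.zpow_left k).eq

/-- A subgroup of prime order is generated by each of its non-identity elements. -/
theorem zpowers_eq_of_prime_card [Finite G] {R : Subgroup G} {r : ℕ} (hr : r.Prime)
    (hR : Nat.card R = r) {x : G} (hx : x ∈ R) (hx1 : x ≠ 1) : zpowers x = R := by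
  apply Subgroup.eq_of_le_of_card_ge ((zpowers_le).mpr hx)
  rw [hR, Nat.card_zpowers]
  have h1 : orderOf x ∣ r := by
    have h0 := orderOf_dvd_natCard (⟨x, hx⟩ : R)
    rwa [Subgroup.orderOf_mk, hR] at h0
  rcases (Nat.dvd_prime hr).mp h1 with h | h
  · exact absurd (orderOf_eq_one_iff.mp h) hx1
  · exact h.ge

/-- A `t`-subgroup of a `Z`-group is cyclic. -/
theorem isCyclic_of_le_zgroup [Finite G] {t : ℕ} [Fact t.Prime] {W Z : Subgroup G} (hWZ : W ≤ Z)
    (hW : IsPGroup t W) (hZ : IsZGroup Z) : IsCyclic W := by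
  have hWpg : IsPGroup t (W.subgroupOf Z) := hW.comap_subtype
  obtain ⟨S, hS⟩ := hWpg.exists_le_sylow
  haveI : IsCyclic ↥(S : Subgroup Z) := hZ.isZGroup t Fact.out S
  let f : W →* (S : Subgroup Z) := (Subgroup.inclusion hWZ).codRestrict (S : Subgroup Z)
    (fun y => hS (Subgroup.mem_subgroupOf.mpr y.2))
  have hf : Function.Injective f := by
    intro a b hab
    have h1 : (Subgroup.inclusion hWZ) a = (Subgroup.inclusion hWZ) b :=
      congrArg Subtype.val hab
    exact Subgroup.inclusion_injective hWZ h1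
  exact isCyclic_of_injective f hf

/-- **BG134-LR.** -/
theorem lr [Finite G] (hG : IsMinSimpleOddOrder G) (h05 : St1405 G) (h06 : St1406 G)
    (h07 : St1407 G) (hLW : StLW G) : StLR G := by
  intro H L R X r q hH hr hRH hRcard hq hqα hXH hXq hX1 hRX hfree hL hLH hCL hα
  obtain ⟨hrp, hrσ, hrdvd, -, hrk1⟩ := hr
  haveI : Fact r.Prime := ⟨hrp⟩
  haveI : Fact q.Prime := ⟨hq⟩
  have hr2 : r ≠ 2 := Cfsg.Agent.H76.BG10.ne_two_of_dvd hG H hrdvd
  obtain ⟨⟨hαH, hαpi, -⟩, -, -, -, -⟩ := h05 H hH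
  have hHtop : H ≠ ⊤ := hH.1
  have hHN : H ≤ normalizer (alphaCore H : Set G) :=
    Cfsg.Agent.Lib.Helper30.le_normalizer_piCoreOf (alpha H) H
  have hXN : X ≤ normalizer (alphaCore H : Set G) := hXH.trans hHN
  have hRN : R ≤ normalizer (alphaCore H : Set G) := hRH.trans hHN
  have hαs : Group.IsSolvable (alphaCore H) :=
    hG.2.2.2 _ (fun h => hHtop (top_le_iff.mp (h ▸ hαH)))
  have hXs : Group.IsSolvable X := hG.2.2.2 _ (fun h => hHtop (top_le_iff.mp (h ▸ hXH)))
  have hRpg : IsPGroup r R := IsPGroup.of_card (n := 1) (by rw [hRcard, pow_one])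
  have hrα : r ∉ alpha H := fun h => h.2 (fun A hA hAp =>
    (hrk1 A hA hAp).trans (Nat.pow_le_pow_right hrp.pos (by norm_num)))
  -- `q ≠ r`
  have hqr : q ≠ r := by
    rintro rfl
    have hpg : IsPGroup q (R ⊔ X : Subgroup G) := IsPGroup.to_sup_of_normal_right' hRpg hXq hRX
    have hle : R ⊔ X ≤ H := sup_le hRH hXH
    have hrk : PRankLE q 1 (R ⊔ X : Subgroup G) :=
      Cfsg.Agent.H76.BG10.pRankLE_of_injective (Subgroup.inclusion hle)
        (Subgroup.inclusion_injective hle) hrk1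
    haveI hcyc : IsCyclic (R ⊔ X : Subgroup G) :=
      Cfsg.Agent.Helper55.isCyclic_of_pRankLE_one hr2 hpg hrk
    have hXC : X ≤ centralizer (R : Set G) := by
      intro x hx
      rw [mem_centralizer_iff]
      intro y hy
      have hx' : x ∈ R ⊔ X := (le_sup_right : X ≤ R ⊔ X) hx
      have hy' : y ∈ R ⊔ X := (le_sup_left : R ≤ R ⊔ X) hy
      have h0 := (IsCyclic.isMulCommutative (α := ↥(R ⊔ X : Subgroup G))).1.1
        (⟨y, hy'⟩ : (R ⊔ X : Subgroup G)) ⟨x, hx'⟩
      exact congrArg Subtype.val h0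
    exact hX1 (le_bot_iff.mp (hfree ▸ le_inf le_rfl hXC))
  -- coprimality
  have hαX : (Nat.card (alphaCore H)).Coprime (Nat.card X) := by
    obtain ⟨k, hk⟩ := IsPGroup.iff_card.mp hXq
    rw [hk]
    apply Nat.Coprime.pow_right
    rw [Nat.coprime_comm]
    exact (Nat.Prime.coprime_iff_not_dvd hq).mpr (fun h => hqα (hαpi q hq h))
  have hαR : (Nat.card (alphaCore H)).Coprime (Nat.card R) := by
    rw [hRcard, Nat.coprime_comm]
    exact (Nat.Prime.coprime_iff_not_dvd hrp).mpr (fun h => hrα (hαpi r hrp h))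
  have hXR : (Nat.card X).Coprime (Nat.card R) := by
    obtain ⟨k, hk⟩ := IsPGroup.iff_card.mp hXq
    rw [hk, hRcard]
    exact Nat.Coprime.pow_left k ((Nat.coprime_primes hq hrp).mpr hqr)
  have hfrob : ∀ r0 ∈ R, r0 ≠ 1 → X ⊓ centralizer {r0} = ⊥ := by
    intro r0 hr0 hr01
    rw [← centralizer_zpowers', zpowers_eq_of_prime_card hrp hRcard hr0 hr01]
    exact hfree
  have hFD : Cfsg.Agent.H58.FrobWielandt.FrobData X R (alphaCore H) :=
    ⟨hRX, hXs, hXR, hfrob, hXN, hRN, hαs, hαX, hαR⟩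
  -- (0) `C_{H_α}(X)` has rank at most 1
  have h0 : RankLE 1 ↥(alphaCore H ⊓ centralizer (X : Set G)) := by
    by_contra hne
    have hu := h06 H hH X hXH (fun p hp hpd => by
      obtain ⟨k, hk⟩ := IsPGroup.iff_card.mp hXq
      rw [hk] at hpd
      have hpq : p = q := (Nat.prime_dvd_prime_iff_eq hp hq).mp (hp.dvd_of_dvd_pow hpd)
      rw [hpq]; exact hqα) hne
    obtain ⟨M0, -, huniq⟩ := hu
    have e1 : H = M0 := huniq H ⟨hH, inf_le_left⟩
    have e2 : L = M0 := huniq L ⟨hL, hCL⟩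
    exact hLH (e2.trans e1.symm)
  -- (0') `C_{H_α}(R)` is a Z-group
  have hRsub : IsPGroup r (R.subgroupOf H) := hRpg.comap_subtype
  obtain ⟨Pr, hPr⟩ := hRsub.exists_le_sylow
  obtain ⟨x, hxc, hxord, hZ, -⟩ := h07 H hH hα r hrdvd hrσ Pr
  have hxP : x ∈ (Pr : Subgroup H).map H.subtype := by
    obtain ⟨y, hy, rfl⟩ := Subgroup.mem_map.mp hxc
    obtain ⟨z, hz, rfl⟩ := Subgroup.mem_map.mp hy
    exact Subgroup.mem_map.mpr ⟨_, z.2, rfl⟩
  have hRP : R ≤ (Pr : Subgroup H).map H.subtype := by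
    intro y hy
    exact Subgroup.mem_map.mpr ⟨⟨y, hRH hy⟩, hPr (Subgroup.mem_subgroupOf.mpr hy), rfl⟩
  have hPpg : IsPGroup r ((Pr : Subgroup H).map H.subtype) := Pr.isPGroup'.map _
  have hPle : (Pr : Subgroup H).map H.subtype ≤ H := by
    rintro _ ⟨y, -, rfl⟩; exact y.2
  have hPrk : PRankLE r 1 ((Pr : Subgroup H).map H.subtype) :=
    Cfsg.Agent.H76.BG10.pRankLE_of_injective (Subgroup.inclusion hPle)
      (Subgroup.inclusion_injective hPle) hrk1
  haveI hPcyc : IsCyclic ((Pr : Subgroup H).map H.subtype) :=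
    Cfsg.Agent.Helper55.isCyclic_of_pRankLE_one hr2 hPpg hPrk
  have hxle : zpowers x ≤ (Pr : Subgroup H).map H.subtype := (zpowers_le).mpr hxP
  have hRx : R = zpowers x := by
    have h1 : (R.subgroupOf ((Pr : Subgroup H).map H.subtype)) =
        ((zpowers x).subgroupOf ((Pr : Subgroup H).map H.subtype)) := by
      apply Cfsg.Agent.H29.eq_of_card_eq_of_isCyclic
      rw [Nat.card_congr (Subgroup.subgroupOfEquivOfLe hRP).toEquiv,
        Nat.card_congr (Subgroup.subgroupOfEquivOfLe hxle).toEquiv, hRcard, Nat.card_zpowers,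
        hxord]
    have h2 := congrArg (Subgroup.map ((Pr : Subgroup H).map H.subtype).subtype) h1
    rwa [Subgroup.map_subgroupOf_eq_of_le hRP, Subgroup.map_subgroupOf_eq_of_le hxle] at h2
  have hZR : IsZGroup ↥(alphaCore H ⊓ centralizer (R : Set G)) := by
    rw [hRx, centralizer_zpowers']; exact hZ
  -- Wielandt's formula
  have hForm := Cfsg.Agent.H58.FrobWielandt.wielandt_formula _ G X R (alphaCore H) rfl hFD
  unfold Cfsg.Agent.H58.FrobWielandt.Formula at hForm
  have hXRle : alphaCore H ⊓ centralizer ((X ⊔ R : Subgroup G) : Set G) ≤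
      alphaCore H ⊓ centralizer (X : Set G) ⊓ centralizer (R : Set G) := by
    intro c hc
    exact ⟨⟨hc.1, Subgroup.centralizer_le
      (SetLike.coe_subset_coe.mpr (le_sup_left : X ≤ X ⊔ R)) hc.2⟩,
      Subgroup.centralizer_le (SetLike.coe_subset_coe.mpr (le_sup_right : R ≤ X ⊔ R)) hc.2⟩
  -- (1)
  have part1 : alphaCore H ⊓ centralizer (R : Set G) ≠ ⊥ := by
    intro hbot
    have hb2 : alphaCore H ⊓ centralizer ((X ⊔ R : Subgroup G) : Set G) = ⊥ := by
      rw [eq_bot_iff]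
      intro c hc
      have h1 := hXRle hc
      rw [← hbot]
      exact ⟨h1.1.1, h1.2⟩
    rw [hbot, hb2] at hForm
    simp only [Subgroup.card_bot, one_pow, one_mul] at hForm
    have heq : alphaCore H ⊓ centralizer (X : Set G) = alphaCore H :=
      Subgroup.eq_of_le_of_card_ge inf_le_left hForm.le
    rw [heq] at h0
    obtain ⟨s, hs, hsd⟩ := Nat.exists_prime_and_dvd (fun h => hα (Subgroup.card_eq_one.mp h))
    have hsα : s ∈ alpha H := hαpi s hs hsd
    haveI : Fact s.Prime := ⟨hs⟩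
    obtain ⟨B, hBH, hBc, hBs, hBcard⟩ :=
      Cfsg.Agent.H31.T2.exists_elementary_of_not_pRankLE hsα.2
    have hBpg : IsPGroup s B := fun b => ⟨1, by rw [pow_one]; exact Subtype.ext (hBs b b.2)⟩
    have hBα : B ≤ alphaCore H :=
      Cfsg.Agent.H92.BG12.le_alphaCore_of_mem h05 hH hsα hBpg hBH
    exact not_pRankLE_of_sub hBα hBc hBs
      (lt_of_le_of_lt (Nat.pow_le_pow_right hs.pos (by norm_num)) hBcard) (h0 s hs)
  refine ⟨part1, ?_⟩
  -- (2)
  by_contra hne
  obtain ⟨t, ht, htd⟩ := Nat.exists_prime_and_dvd (fun h => hne (Subgroup.card_eq_one.mp h))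
  haveI : Fact t.Prime := ⟨ht⟩
  obtain ⟨c0, hc0⟩ := exists_prime_orderOf_dvd_card'
    (G := ↥(alphaCore H ⊓ centralizer (X : Set G) ⊓ centralizer (R : Set G))) t htd
  obtain ⟨c, hcD⟩ := c0
  have hcord : orderOf c = t := by rw [← hc0, Subgroup.orderOf_mk]
  have hDα : alphaCore H ⊓ centralizer (X : Set G) ⊓ centralizer (R : Set G) ≤ alphaCore H :=
    inf_le_left.trans inf_le_left
  have htα : t ∈ alpha H := hαpi t ht (htd.trans (Subgroup.card_dvd_of_le hDα))
  have ht2 : t ≠ 2 := Cfsg.Agent.H76.BG10.ne_two_of_dvd hG _ htd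
  have hqt : q ≠ t := fun h => hqα (h ▸ htα)
  have hrt : r ≠ t := fun h => hrα (h ▸ htα)
  have hUpg : IsPGroup t (zpowers c) :=
    IsPGroup.of_card (n := 1) (by rw [Nat.card_zpowers, hcord, pow_one])
  have hUα : zpowers c ≤ alphaCore H := (zpowers_le).mpr (hDα hcD)
  have hcX : c ∈ centralizer (X : Set G) := hcD.1.2
  have hcR : c ∈ centralizer (R : Set G) := hcD.2
  have hA_U : X ⊔ R ≤ normalizer ((zpowers c : Subgroup G) : Set G) := by
    refine sup_le ?_ ?_
    · intro y hy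
      apply Subgroup.centralizer_le_normalizer
      rw [centralizer_zpowers', mem_centralizer_iff]
      intro z hz
      rw [Set.mem_singleton_iff] at hz
      subst hz
      exact ((mem_centralizer_iff.mp hcX) y hy).symm
    · intro y hy
      apply Subgroup.centralizer_le_normalizer
      rw [centralizer_zpowers', mem_centralizer_iff]
      intro z hz
      rw [Set.mem_singleton_iff] at hz
      subst hz
      exact ((mem_centralizer_iff.mp hcR) y hy).symm
  have hA_N : X ⊔ R ≤ normalizer (alphaCore H : Set G) := sup_le hXN hRN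
  have hAcop : (Nat.card (X ⊔ R : Subgroup G)).Coprime (Nat.card (alphaCore H)) :=
    Cfsg.Agent.H58.FrobWielandt.coprime_sup hRX hXR hαX hαR
  obtain ⟨P, hUP, hAP⟩ := Cfsg.Agent.Lib.Helper30.coprime_invariant_le_sylow (X ⊔ R)
    (alphaCore H) hA_N hAcop (Or.inr hαs) t (zpowers c) hUα hUpg hA_U
  have hTpg : IsPGroup t ((P : Subgroup (alphaCore H)).map (alphaCore H).subtype) :=
    P.isPGroup'.map _
  have hTα : (P : Subgroup (alphaCore H)).map (alphaCore H).subtype ≤ alphaCore H := by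
    rintro _ ⟨y, -, rfl⟩; exact y.2
  have hcT : c ∈ (P : Subgroup (alphaCore H)).map (alphaCore H).subtype :=
    hUP (mem_zpowers c)
  have hTrk : ¬ PRankLE t 2 ((P : Subgroup (alphaCore H)).map (alphaCore H).subtype) := by
    apply Cfsg.Agent.H58.BG10.not_pRankLE_sylow P
    obtain ⟨B, hBH, hBc, hBs, hBcard⟩ :=
      Cfsg.Agent.H31.T2.exists_elementary_of_not_pRankLE htα.2
    have hBpg : IsPGroup t B := fun b => ⟨1, by rw [pow_one]; exact Subtype.ext (hBs b b.2)⟩
    have hBα : B ≤ alphaCore H :=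
      Cfsg.Agent.H92.BG12.le_alphaCore_of_mem h05 hH htα hBpg hBH
    exact not_pRankLE_of_sub hBα hBc hBs hBcard
  have hcyc1 : IsCyclic ↥((P : Subgroup (alphaCore H)).map (alphaCore H).subtype ⊓
      centralizer (R : Set G)) :=
    isCyclic_of_le_zgroup (inf_le_inf_right _ hTα) (hTpg.to_le inf_le_left) hZR
  have hcyc2 : IsCyclic ↥((P : Subgroup (alphaCore H)).map (alphaCore H).subtype ⊓
      centralizer (X : Set G)) := by
    have hle : (P : Subgroup (alphaCore H)).map (alphaCore H).subtype ⊓ centralizer (X : Set G) ≤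
        alphaCore H ⊓ centralizer (X : Set G) := inf_le_inf_right _ hTα
    exact Cfsg.Agent.Helper55.isCyclic_of_pRankLE_one ht2 (hTpg.to_le inf_le_left)
      (Cfsg.Agent.H76.BG10.pRankLE_of_injective (Subgroup.inclusion hle)
        (Subgroup.inclusion_injective hle) (h0 t ht))
  have hfin := hLW X R ((P : Subgroup (alphaCore H)).map (alphaCore H).subtype) q t hq ht ht2
    hqt hXq (hRcard.symm ▸ hrp) (by rw [hRcard]; exact fun h => hqr h.symm)
    (by rw [hRcard]; exact hrt) hTpg hTrk hRX hfree (le_sup_left.trans hAP)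
    (le_sup_right.trans hAP) hcyc1 hcyc2
  have hcmem : c ∈ (P : Subgroup (alphaCore H)).map (alphaCore H).subtype ⊓
      centralizer (X : Set G) ⊓ centralizer (R : Set G) := ⟨⟨hcT, hcX⟩, hcR⟩
  rw [hfin] at hcmem
  have hc1 : c = 1 := Subgroup.mem_bot.mp hcmem
  rw [hc1, orderOf_one] at hcord
  exact ht.one_lt.ne hcord

example [Finite G] (hG : IsMinSimpleOddOrder G) (h05 : St1405 G) (h06 : St1406 G)
    (h07 : St1407 G) (hLW : Cfsg.Agent.Lib.Helper30.BG134.StLW G) :
    Cfsg.Agent.Lib.Helper30.BG134.StLR G := lr hG h05 h06 h07 hLW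

end Cfsg.Agent.H29.BG134
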