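import Mathlib
import Cfsg.Agent.H29.BG134LR
import Cfsg.Agent.H29.BG134Adapt
import Cfsg.Agent.H89.BG134LW
import Cfsg.Agent.H58.BG10All

set_option autoImplicit false

/-!
# Lemma R (B&G 12.18(a) / 13.1(a)), unconditional (helper29)

`stLR hG : StLR G` (helper30's form) and `stLemR hG : StLemR G` (helper57's / helper90's form),
from `lr` (H29), helper89's `lw` and helper58's `st1405`, `st1406`, `st1407`.
-/

namespace Cfsg.Agent.H29.BG134

open Cfsg

universe u

variable {G : Type u} [Group G]

/-- Lemma R in helper30's form, unconditional. -/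
theorem stLR [Finite G] (hG : IsMinSimpleOddOrder G) : Cfsg.Agent.Lib.Helper30.BG134.StLR G :=
  lr hG (Cfsg.Agent.H58.BG10.st1405 hG) (Cfsg.Agent.H58.BG10.st1406 hG)
    (Cfsg.Agent.H58.BG10.st1407 hG) Cfsg.Agent.H89.BG134.lw

/-- Lemma R in helper57's form, unconditional. -/
theorem stLemR [Finite G] (hG : IsMinSimpleOddOrder G) : Cfsg.Agent.H57.BG134R.StLemR G :=
  lemR_of_lr (stLR hG)

end Cfsg.Agent.H29.BG134
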