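import Mathlib
import Cfsg.Agent.H47.BG139Defs
import Cfsg.Agent.H92.BG123
import Cfsg.Agent.H47.BG1216E1
import Cfsg.Agent.S3745

set_option autoImplicit false
set_option linter.style.haveILetI false
set_option linter.unusedVariables false

/-!
# Bender–Glauberman Theorem 13.9 (S1378), piece BG139-STEP (helper29, for helper47)

In a configuration `SCfg M N Q q`: if `R ≤ N_G(Q)` has order `r ∈ τ₁(M)` and `v ∈ N_G(Q)` has
order `u ^ k` with `u ∈ τ₁(M)`, then `v` centralizes `C_Q(R)`.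
-/

namespace Cfsg.Agent.H29.BG139

open Cfsg Subgroup Cfsg.Agent.H58.BG10 Cfsg.Agent.H57.BG12 Cfsg.Agent.H47.BG139
  Cfsg.Agent.H63.Sig
open scoped Pointwise commutatorElement

universe u

variable {G : Type u} [Group G]

/-- **BG139-STEP.** -/
theorem step [Finite G] (hG : IsMinSimpleOddOrder G) (hInv : StInv G) (hAbel : StAbel G)
    (h28 : Cfsg.Agent.Lib.Helper30.BG134.St1428 G) (hKey : Cfsg.Agent.H57.BG1218.StKey G)
    (hSC : StSigConj G) (h50 : St1350 G) : StStep G := by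
  intro M N Q q hcfg r R hr hRD hRcard u v hu hvD hk z hz
  obtain ⟨k, hk⟩ := hk
  have hM := hcfg.hM
  obtain ⟨hrp, hrσ, hrdvd, hrcomm, hrk1⟩ := hr
  obtain ⟨hup, huσ, hudvd, hucomm, huk1⟩ := hu
  haveI : Fact r.Prime := ⟨hrp⟩
  haveI : Fact u.Prime := ⟨hup⟩
  have hDM : normalizer (Q : Set G) ≤ M := hcfg.hNM
  by_cases hk0 : k = 0
  · subst hk0
    rw [pow_zero] at hk
    rw [orderOf_eq_one_iff.mp hk, one_mul, mul_one]
  obtain ⟨k', rfl⟩ : ∃ k', k = k' + 1 := Nat.exists_eq_succ_of_ne_zero hk0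
  have hDtop : normalizer (Q : Set G) ≠ ⊤ := fun h => hM.1 (top_le_iff.mp (h ▸ hDM))
  have hDs : Group.IsSolvable ↥(normalizer (Q : Set G)) := hG.2.2.2 _ hDtop
  have hS := Cfsg.Agent.S3745.result (⊥ : Subgroup G) (normalizer (Q : Set G)) bot_le (by simp)
    hDs ({r, u} : Set ℕ)
  obtain ⟨J0, hJ0, -, hRJ0⟩ := hS.2.2 R hRD bot_le (fun p hp hpd => by
    rw [hRcard] at hpd
    have hpr : p = r := (Nat.prime_dvd_prime_iff_eq hp hrp).mp hpd
    rw [hpr]; exact Set.mem_insert _ _)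
  obtain ⟨J1, hJ1, -, hvJ1⟩ := hS.2.2 (zpowers v) ((zpowers_le).mpr hvD) bot_le
    (fun p hp hpd => by
      rw [Nat.card_zpowers, hk] at hpd
      have hpu : p = u := (Nat.prime_dvd_prime_iff_eq hp hup).mp (hp.dvd_of_dvd_pow hpd)
      rw [hpu]; exact Set.mem_insert_of_mem _ (Set.mem_singleton _))
  obtain ⟨d, hd, hJ⟩ := hS.2.1 J1 J0 hJ1 bot_le hJ0 bot_le
  have hdD : d ∈ normalizer (Q : Set G) := hd.1
  have hv1J0 : d * v * d⁻¹ ∈ J0 := by
    rw [hJ]; exact Subgroup.mem_map.mpr ⟨v, hvJ1 (mem_zpowers v), rfl⟩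
  have hJ0D : J0 ≤ normalizer (Q : Set G) := hJ0.1
  have hJ0M : J0 ≤ M := hJ0D.trans hDM
  have hJ0pi : ∀ p : ℕ, p.Prime → p ∣ Nat.card J0 → p = r ∨ p = u := fun p hp hpd => by
    have h0 := hJ0.2.1 p hp hpd
    rcases Set.mem_insert_iff.mp h0 with h | h
    · exact Or.inl h
    · exact Or.inr (Set.mem_singleton_iff.mp h)
  -- `J0` is abelian
  have hbot : J0 ⊓ ⁅M, M⁆ = ⊥ := by
    rw [← Subgroup.card_eq_one]
    by_contra hne
    obtain ⟨p, hp, hpd⟩ := Nat.exists_prime_and_dvd hne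
    have h1 : p ∣ Nat.card J0 := hpd.trans (Subgroup.card_dvd_of_le inf_le_left)
    have h2 : p ∣ Nat.card ↥⁅M, M⁆ := hpd.trans (Subgroup.card_dvd_of_le inf_le_right)
    rcases hJ0pi p hp h1 with rfl | rfl
    · exact hrcomm h2
    · exact hucomm h2
  have hJ0comm : ∀ a ∈ J0, ∀ b ∈ J0, a * b = b * a := by
    intro a ha b hb
    have hc : ⁅a, b⁆ ∈ J0 ⊓ ⁅M, M⁆ := by
      refine ⟨?_, Subgroup.commutator_mem_commutator (hJ0M ha) (hJ0M hb)⟩
      rw [commutatorElement_def]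
      exact J0.mul_mem (J0.mul_mem (J0.mul_mem ha hb) (J0.inv_mem ha)) (J0.inv_mem hb)
    rw [hbot] at hc
    exact commutatorElement_eq_one_iff_mul_comm.mp (Subgroup.mem_bot.mp hc)
  -- the conjugate `v1 = d v d⁻¹` and its power `x` of order `u`
  have hv1ord : orderOf (d * v * d⁻¹) = u ^ (k' + 1) := by
    rw [← hk]; exact (MulAut.conj d).orderOf_eq v
  have hv1M : d * v * d⁻¹ ∈ M := hJ0M hv1J0
  have hxu : ((d * v * d⁻¹) ^ (u ^ k')) ^ u = 1 := by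
    rw [← pow_mul, ← pow_succ, ← hv1ord, pow_orderOf_eq_one]
  have hx1 : (d * v * d⁻¹) ^ (u ^ k') ≠ 1 := by
    intro h
    have hd' : orderOf (d * v * d⁻¹) ∣ u ^ k' := orderOf_dvd_of_pow_eq_one h
    rw [hv1ord] at hd'
    have := (Nat.pow_dvd_pow_iff_le_right hup.one_lt).mp hd'
    omega
  have hxord : orderOf ((d * v * d⁻¹) ^ (u ^ k')) = u := orderOf_eq_prime hxu hx1
  have hxJ0 : (d * v * d⁻¹) ^ (u ^ k') ∈ J0 := pow_mem hv1J0 _
  have hXle : zpowers ((d * v * d⁻¹) ^ (u ^ k')) ≤ zpowers (d * v * d⁻¹) :=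
    (zpowers_le).mpr (pow_mem (mem_zpowers _) _)
  have hXcard : Nat.card (zpowers ((d * v * d⁻¹) ^ (u ^ k'))) = u := by
    rw [Nat.card_zpowers, hxord]
  -- a complement of `M_σ` containing `J0`
  obtain ⟨E, hE⟩ := Cfsg.Agent.H47.BG12.exists_complIn_sigmaCore h50 hM
  obtain ⟨g, hgM, hgE⟩ := hSC M hM E hE J0 hJ0M (fun p hp hpd => by
    rcases hJ0pi p hp hpd with rfl | rfl
    · exact hrσ
    · exact huσ)
  have hE' : IsComplIn (MulAut.conj g⁻¹ • E) (sigmaCore M) M :=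
    Cfsg.Agent.H47.BG12.complIn_cj hE (inv_mem hgM)
  have hJ0E' : J0 ≤ MulAut.conj g⁻¹ • E := by
    intro a ha
    rw [mem_cj, inv_inv]
    exact hgE (Subgroup.mem_map.mpr ⟨a, ha, rfl⟩)
  -- 13.4
  have hXE : zpowers ((d * v * d⁻¹) ^ (u ^ k')) ≤
      MulAut.conj g⁻¹ • E ⊓ centralizer (R : Set G) := by
    rw [zpowers_le]
    refine ⟨hJ0E' hxJ0, ?_⟩
    show (d * v * d⁻¹) ^ (u ^ k') ∈ centralizer (R : Set G)
    rw [mem_centralizer_iff]
    intro y hy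
    exact hJ0comm y (hRJ0 hy) _ hxJ0
  have h1 := h28 M hM _ hE' r ⟨hrp, hrσ, hrdvd, hrcomm, hrk1⟩ R (hRJ0.trans hJ0E') hRcard
    (zpowers ((d * v * d⁻¹) ^ (u ^ k'))) hXE (by rw [hXcard]; exact hup)
  -- 13.3
  have hv1pg : IsPGroup u (zpowers (d * v * d⁻¹)) :=
    IsPGroup.of_card (n := k' + 1) (by rw [Nat.card_zpowers, hv1ord])
  have h2 := hKey M hM u huσ huk1 (zpowers (d * v * d⁻¹))
    (zpowers ((d * v * d⁻¹) ^ (u ^ k'))) ((zpowers_le).mpr hv1M) hv1pg inferInstance hXle hXcard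
  -- the conjugate `z1 = d z d⁻¹`
  have hz1 : d * z * d⁻¹ ∈ Q ⊓ centralizer (R : Set G) :=
    (mem_normalizer_iff.mp (hInv M N Q q hcfg R hRD hdD) z).mp hz
  have hQσ : Q ≤ sigmaCore M := (hAbel M N Q q hcfg).1
  have hz1σ : d * z * d⁻¹ ∈ sigmaCore M ⊓ centralizer (R : Set G) := ⟨hQσ hz1.1, hz1.2⟩
  have hz1v : d * z * d⁻¹ ∈ centralizer ((zpowers (d * v * d⁻¹) : Subgroup G) : Set G) :=
    h2 (h1 hz1σ)
  have hcomm1 : (d * v * d⁻¹) * (d * z * d⁻¹) = (d * z * d⁻¹) * (d * v * d⁻¹) :=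
    (mem_centralizer_iff.mp hz1v) _ (mem_zpowers _)
  have hfin : d * (v * z) * d⁻¹ = d * (z * v) * d⁻¹ := by
    calc d * (v * z) * d⁻¹ = (d * v * d⁻¹) * (d * z * d⁻¹) := by group
      _ = (d * z * d⁻¹) * (d * v * d⁻¹) := hcomm1
      _ = d * (z * v) * d⁻¹ := by group
  exact mul_left_cancel (mul_right_cancel hfin)

example [Finite G] (hG : IsMinSimpleOddOrder G) (hInv : Cfsg.Agent.H47.BG139.StInv G)
    (hAbel : Cfsg.Agent.H47.BG139.StAbel G)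
    (h28 : Cfsg.Agent.Lib.Helper30.BG134.St1428 G) (hKey : Cfsg.Agent.H57.BG1218.StKey G)
    (hSC : StSigConj G) (h50 : St1350 G) : Cfsg.Agent.H47.BG139.StStep G :=
  step hG hInv hAbel h28 hKey hSC h50

end Cfsg.Agent.H29.BG139
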