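import Mathlib
import Cfsg.Agent.H47.BG139Defs
import Cfsg.Agent.H92.BG123
import Cfsg.Agent.H47.BG1216E1
import Cfsg.Agent.S3745

set_option autoImplicit false
set_option linter.style.haveILetI false
set_option linter.unusedVariables false

/-!
# Bender–Glauberman Theorem 13.9 (S1378), piece BG139-TAU (helper29, for helper47)

In a configuration `SCfg M N Q q`, an element `v` of prime power order `u ^ k` of `N_G(Q)` that
does not centralize `Q` has `u ∈ τ₁(M)`.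
-/

namespace Cfsg.Agent.H29.BG139

open Cfsg Subgroup Cfsg.Agent.H58.BG10 Cfsg.Agent.H57.BG12 Cfsg.Agent.H47.BG139
  Cfsg.Agent.H63.Sig
open scoped Pointwise

universe u

variable {G : Type u} [Group G]

/-- **BG139-TAU.** -/
theorem tau [Finite G] (hG : IsMinSimpleOddOrder G) (hDer : StDer G) (h50 : St1350 G)
    (h03 : St1403 G) (h15 : St1415 G) (h17 : St1417 G)
    (hNil : Cfsg.Agent.H57.BG1218.StNilConj G) (hSC : StSigConj G) (hSComm : StSigComm G) :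
    StTau G := by
  intro M N Q q hcfg u v hu hvD hk hz
  obtain ⟨k, hk⟩ := hk
  obtain ⟨z, hzQ, hvz⟩ := hz
  have hM := hcfg.hM
  haveI : Fact u.Prime := ⟨hu⟩
  haveI : Fact q.Prime := ⟨hcfg.hq⟩
  have hvM : v ∈ M := hcfg.hNM hvD
  have hv1 : v ≠ 1 := by
    rintro rfl
    exact hvz (by rw [one_mul, mul_one])
  have hk0 : k ≠ 0 := by
    rintro rfl
    rw [pow_zero] at hk
    exact hv1 (orderOf_eq_one_iff.mp hk)
  have hudvd : u ∣ Nat.card M := by
    have h1 : orderOf v ∣ Nat.card M := by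
      have h0 := orderOf_dvd_natCard (⟨v, hvM⟩ : M)
      rwa [Subgroup.orderOf_mk] at h0
    have h2 : u ∣ orderOf v := by rw [hk]; exact dvd_pow_self u hk0
    exact h2.trans h1
  have hvpg : IsPGroup u (zpowers v) :=
    IsPGroup.of_card (n := k) (by rw [Nat.card_zpowers, hk])
  have hvle : zpowers v ≤ M := (zpowers_le).mpr hvM
  have hvcomm : v ∉ ⁅M, M⁆ := fun h => hvz (hDer M N Q q hcfg v hvD h z hzQ)
  -- (1) `u ∉ σ(M)`
  have h1 : u ∉ sigma M := by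
    intro hσ
    have h2 : zpowers v ≤ sigmaCore M :=
      Cfsg.Agent.H92.BG12.le_sigmaCore_of_mem h50 hM hσ hvpg hvle
    exact hvcomm (Cfsg.Agent.H76.BG10.sigmaCore_le_commutator hSComm M hM (h2 (mem_zpowers v)))
  -- (2) `u`-rank at most 2
  have h2 : PRankLE u 2 M := by
    by_contra h
    exact h1 (alpha_subset_sigma hG h03 hM ⟨hu, h⟩)
  -- (3) `u`-rank at most 1
  have h3 : PRankLE u 1 M := by
    by_contra h
    have hτ2 : u ∈ tau2 M := ⟨hu, h1, h2, h⟩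
    obtain ⟨A, hAM, hAel, hAcard⟩ :=
      Cfsg.Agent.Lib.Helper30.BG12.exists_elem_sq_of_not_pRankLE_one h
    obtain ⟨hnil, -⟩ := h17 M hM u hτ2 A ⟨hAM, hAel, hAcard⟩
    obtain ⟨g, hg⟩ := hNil N M hcfg.hN hM hnil q hcfg.hqN hcfg.hqM
    have hg' : MulAut.conj g • N = M := by rw [← map_conj_eq_smul]; exact hg.symm
    exact hcfg.hnc g⁻¹ (by rw [← hg', cj_inv_cj])
  -- (4) `u ∤ |M'|`
  have h4 : ¬ u ∣ Nat.card ↥⁅M, M⁆ := by
    intro hd
    have hτ3 : u ∈ tau3 M := ⟨hu, h1, hd, h3⟩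
    obtain ⟨E, hE⟩ := Cfsg.Agent.H47.BG12.exists_complIn_sigmaCore h50 hM
    obtain ⟨g, hgM, hgE⟩ := hSC M hM E hE (zpowers v) hvle (fun p hp hpd => by
      rw [Nat.card_zpowers, hk] at hpd
      have hpu : p = u := (Nat.prime_dvd_prime_iff_eq hp hu).mp (hp.dvd_of_dvd_pow hpd)
      rw [hpu]; exact h1)
    have hv'E : g * v * g⁻¹ ∈ E := hgE (Subgroup.mem_map.mpr ⟨v, mem_zpowers v, rfl⟩)
    have hE' : IsComplIn (MulAut.conj g⁻¹ • E) (sigmaCore M) M :=
      Cfsg.Agent.H47.BG12.complIn_cj hE (inv_mem hgM)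
    have hvE' : v ∈ MulAut.conj g⁻¹ • E := by
      rw [mem_cj, inv_inv]; exact hv'E
    have hEtop : MulAut.conj g⁻¹ • E ≠ ⊤ := fun h => hM.1 (top_le_iff.mp (h ▸ hE'.1))
    have hEs : Group.IsSolvable ↥(MulAut.conj g⁻¹ • E) := hG.2.2.2 _ hEtop
    obtain ⟨E3, hE3, -, hvE3⟩ := (Cfsg.Agent.S3745.result (⊥ : Subgroup G)
      (MulAut.conj g⁻¹ • E) bot_le (by simp) hEs (tau3 M)).2.2 (zpowers v)
      ((zpowers_le).mpr hvE') bot_le (fun p hp hpd => by
        rw [Nat.card_zpowers, hk] at hpd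
        have hpu : p = u := (Nat.prime_dvd_prime_iff_eq hp hu).mp (hp.dvd_of_dvd_pow hpd)
        rw [hpu]; exact hτ3)
    obtain ⟨-, -, h3'⟩ := h15 M hM _ hE'
    obtain ⟨-, hE3comm, -⟩ := h3' E3 hE3
    exact hvcomm (Subgroup.commutator_mono hE'.1 hE'.1 (hE3comm (hvE3 (mem_zpowers v))))
  exact ⟨hu, h1, hudvd, h4, h3⟩

example [Finite G] (hG : IsMinSimpleOddOrder G) (hDer : Cfsg.Agent.H47.BG139.StDer G)
    (h50 : St1350 G) (h03 : St1403 G) (h15 : St1415 G) (h17 : St1417 G)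
    (hNil : Cfsg.Agent.H57.BG1218.StNilConj G) (hSC : StSigConj G) (hSComm : StSigComm G) :
    Cfsg.Agent.H47.BG139.StTau G := tau hG hDer h50 h03 h15 h17 hNil hSC hSComm

end Cfsg.Agent.H29.BG139
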