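import Mathlib
import Cfsg.Agent.H38.BG161Defs
import Cfsg.Agent.H92.BG123

set_option autoImplicit false
set_option linter.style.haveILetI false

/-!
# Bender–Glauberman Lemma 16.1 (S1421), piece ALPHA2N (helper29)

`M*` a maximal subgroup containing `N_G(S)`, of `q`-rank at least 2 with `q ∉ σ(M*)`
(so `q ∈ τ₂(M*)`), `M` of `q`-rank 1, hypothesis (I): a `q`-element `e` of `E` whose power of
order `q` centralizes `A` centralizes `A`.
-/

namespace Cfsg.Agent.H29.BG161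

open Cfsg Subgroup Cfsg.Agent.H58.BG10 Cfsg.Agent.H58.BG12 Cfsg.Agent.H38.BG161
open scoped Pointwise

universe u

variable {G : Type u} [Group G]

/-- Descending chain: if `e ∉ C` and `e^(q^j) ∈ C`, some power `e^(q^i)` lies outside `C`
while its `q`-th power lies inside. -/
theorem exists_last_outside (C : Subgroup G) (q : ℕ) :
    ∀ (j : ℕ) (e : G), e ∉ C → e ^ (q ^ j) ∈ C →
      ∃ i : ℕ, e ^ (q ^ i) ∉ C ∧ (e ^ (q ^ i)) ^ q ∈ C := by
  intro j
  induction j with
  | zero =>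
    intro e he h
    rw [pow_zero, pow_one] at h
    exact absurd h he
  | succ j ih =>
    intro e he h
    by_cases hj : e ^ (q ^ j) ∈ C
    · exact ih e he hj
    · refine ⟨j, hj, ?_⟩
      rw [← pow_mul, ← pow_succ]
      exact h

/-- The image of an elementary abelian subgroup is elementary abelian. -/
theorem isElementaryAbelian_map' {H H' : Type*} [Group H] [Group H'] (f : H →* H') {q : ℕ}
    {B : Subgroup H} (hB : IsElementaryAbelian q B) : IsElementaryAbelian q (B.map f) := by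
  refine ⟨⟨⟨?_⟩⟩, ?_⟩
  · rintro ⟨a, ha⟩ ⟨b, hb⟩
    obtain ⟨x, hx, rfl⟩ := Subgroup.mem_map.mp ha
    obtain ⟨y, hy, rfl⟩ := Subgroup.mem_map.mp hb
    apply Subtype.ext
    show f x * f y = f y * f x
    have h1 := hB.1.1.1 ⟨x, hx⟩ ⟨y, hy⟩
    have h2 : x * y = y * x := congrArg Subtype.val h1
    rw [← map_mul, h2, map_mul]
  · intro a ha
    obtain ⟨x, hx, rfl⟩ := Subgroup.mem_map.mp ha
    rw [← map_pow, hB.2 x hx, map_one]

/-- A Sylow `p`-subgroup `S` of `G` inside a nilpotent subgroup `K` is normalized by `N_G(K)`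
(elementwise form). -/
theorem conj_mem_of_nilpotent [Finite G] {p : ℕ} [Fact p.Prime] {K S : Subgroup G}
    (hK : Group.IsNilpotent K) (P : Sylow p G) (hPS : (P : Subgroup G) = S) (hSK : S ≤ K)
    {m : G} (hm : m ∈ normalizer (K : Set G)) {s : G} (hs : s ∈ S) : m * s * m⁻¹ ∈ S := by
  have hPK : (P : Subgroup G) ≤ K := hPS ▸ hSK
  let P' : Sylow p K := P.subtype hPK
  have htfae : Group.IsNilpotent K → ∀ (p : ℕ), Fact (Nat.Prime p) → ∀ (P : Sylow p K),
      (P : Subgroup K).Normal := ((Group.isNilpotent_of_finite_tfae (G := K)).out 0 3).mp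
  haveI hn : (P' : Subgroup K).Normal := htfae hK p inferInstance P'
  have hxK : m * s * m⁻¹ ∈ K := (Subgroup.mem_normalizer_iff.mp hm s).mp (hSK hs)
  have hsP : s ∈ (P : Subgroup G) := hPS ▸ hs
  obtain ⟨k, hk⟩ := P.isPGroup' ⟨s, hsP⟩
  have hsk : s ^ (p ^ k) = 1 := by simpa using congrArg Subtype.val hk
  have hxk : (m * s * m⁻¹) ^ (p ^ k) = 1 := by
    rw [conj_pow, hsk]; group
  let x : K := ⟨m * s * m⁻¹, hxK⟩
  have hxk' : x ^ (p ^ k) = 1 := Subtype.ext (by simpa [x] using hxk)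
  have hxpg : IsPGroup p (Subgroup.zpowers x) := by
    obtain ⟨i, -, hi⟩ := (Nat.dvd_prime_pow Fact.out).mp (orderOf_dvd_of_pow_eq_one hxk')
    exact IsPGroup.of_card (n := i) (by rw [Nat.card_zpowers, hi])
  obtain ⟨P'', hP''⟩ := hxpg.exists_le_sylow
  obtain ⟨g, hg⟩ := MulAction.exists_smul_eq K P' P''
  rw [Sylow.smul_eq_of_normal] at hg
  have hx : x ∈ (P' : Subgroup K) := hg ▸ hP'' (Subgroup.mem_zpowers x)
  have hx2 : x ∈ (P : Subgroup G).subgroupOf K := hx
  rw [Subgroup.mem_subgroupOf] at hx2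
  exact hPS ▸ hx2

/-- A Sylow `p`-subgroup `S` of `G` with `N_G(S) ≤ M*` puts `p` in `σ(M*)`. -/
theorem mem_sigma_of_sylow [Finite G] {p : ℕ} [Fact p.Prime] {Mst S : Subgroup G}
    (P : Sylow p G) (hPS : (P : Subgroup G) = S) (hp : p ∣ Nat.card Mst)
    (hN : normalizer (S : Set G) ≤ Mst) : p ∈ sigma Mst := by
  have hSM : S ≤ Mst := Subgroup.le_normalizer.trans hN
  have hPM : (P : Subgroup G) ≤ Mst := hPS ▸ hSM
  refine ⟨Fact.out, hp, P.subtype hPM, ?_⟩
  have h1 : ((P.subtype hPM : Sylow p Mst) : Subgroup Mst).map Mst.subtype = S := by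
    rw [Sylow.coe_subtype, Subgroup.map_subgroupOf_eq_of_le hPM, hPS]
  rw [h1]
  exact hN

/-- If `M` has `q`-rank at least 2, every Sylow `q`-subgroup of `M` contains an elementary
abelian subgroup of order `q²`. -/
theorem exists_elem_sq_in_sylow [Finite G] {q : ℕ} [Fact q.Prime] {M : Subgroup G}
    (h1 : ¬ PRankLE q 1 M) (Q : Sylow q M) :
    ∃ B : Subgroup G, B ≤ (Q : Subgroup M).map M.subtype ∧ IsElementaryAbelian q B ∧
      Nat.card B = q ^ 2 := by
  have hq : q.Prime := Fact.out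
  unfold PRankLE at h1
  push Not at h1
  obtain ⟨A', hA'c, hA'q, hcard⟩ := h1
  have hA'pg : IsPGroup q A' := by
    intro a
    refine ⟨1, ?_⟩
    rw [pow_one]
    exact Subtype.ext (hA'q a a.2)
  obtain ⟨k, hk⟩ := IsPGroup.iff_card.mp hA'pg
  have hk2 : 2 ≤ k := by
    by_contra hlt
    have hk1 : k ≤ 1 := by omega
    have : q ^ k ≤ q ^ 1 := Nat.pow_le_pow_right hq.pos hk1
    omega
  have hdvd : q ^ 2 ∣ Nat.card A' := by rw [hk]; exact pow_dvd_pow q hk2
  obtain ⟨K, hK⟩ := Sylow.exists_subgroup_card_pow_prime q hdvd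
  let B0 : Subgroup M := K.map A'.subtype
  have hB0card : Nat.card B0 = q ^ 2 := by
    rw [Subgroup.card_map_of_injective (Subgroup.subtype_injective _), hK]
  have hB0le : B0 ≤ A' := by
    rintro x ⟨y, -, rfl⟩; exact y.2
  have hB0el : IsElementaryAbelian q B0 := by
    refine ⟨⟨⟨?_⟩⟩, ?_⟩
    · rintro ⟨a, ha⟩ ⟨b, hb⟩
      apply Subtype.ext
      have h2 := hA'c.1.1 ⟨a, hB0le ha⟩ ⟨b, hB0le hb⟩
      show a * b = b * a
      exact congrArg Subtype.val h2
    · intro a ha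
      exact hA'q a (hB0le ha)
  have hB0pg : IsPGroup q B0 := IsPGroup.of_card hB0card
  obtain ⟨Q', hQ'⟩ := hB0pg.exists_le_sylow
  obtain ⟨g, hg⟩ := MulAction.exists_smul_eq M Q' Q
  refine ⟨(B0.map (MulAut.conj g).toMonoidHom).map M.subtype, ?_, ?_, ?_⟩
  · apply Subgroup.map_mono
    rintro x ⟨y, hy, rfl⟩
    have h2 : y ∈ (Q' : Subgroup M) := hQ' hy
    have h3 : MulAut.conj g • y ∈ MulAut.conj g • (Q' : Subgroup M) :=
      Subgroup.smul_mem_pointwise_smul _ _ _ h2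
    rw [← Sylow.coe_subgroup_smul, hg] at h3
    exact h3
  · exact isElementaryAbelian_map' _ (isElementaryAbelian_map' _ hB0el)
  · rw [Subgroup.card_map_of_injective M.subtype_injective,
      Subgroup.card_map_of_injective (MulAut.conj g).injective, hB0card]

/-- Under (I), an element of `N_G(S)` fixing a non-identity element of `A` centralizes `A`. -/
theorem mem_centralizer_of_fix (hFix : StFixScalar G) {M E S A : Subgroup G} {p : ℕ}
    [Fact p.Prime] (hAb : AbS M E S A p) (hI : HypI S A p) {h : G}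
    (hh : h ∈ normalizer (S : Set G)) {y : G} (hyA : y ∈ A) (hy1 : y ≠ 1)
    (hfix : h * y * h⁻¹ = y) : h ∈ centralizer (A : Set G) := by
  have hp : p.Prime := Fact.out
  have hyp : y ^ p = 1 := hAb.elem.2 y hyA
  have hord : orderOf y = p := orderOf_eq_prime hyp hy1
  have hcomm : Commute h y := by
    show h * y = y * h
    calc h * y = h * y * h⁻¹ * h := by group
      _ = y * h := by rw [hfix]
  have hX : Subgroup.zpowers y ≤ A := (Subgroup.zpowers_le).mpr hyA
  have hXc : Nat.card (Subgroup.zpowers y) = p := by rw [Nat.card_zpowers, hord]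
  have hcz : ∀ z ∈ Subgroup.zpowers y, h * z * h⁻¹ = z := by
    intro z hz
    obtain ⟨k, rfl⟩ := Subgroup.mem_zpowers_iff.mp hz
    have h1 : Commute h (y ^ k) := hcomm.zpow_right k
    calc h * y ^ k * h⁻¹ = y ^ k * h * h⁻¹ := by rw [h1.eq]
      _ = y ^ k := by group
  have hN : h ∈ normalizer ((Subgroup.zpowers y : Subgroup G) : Set G) := by
    rw [Subgroup.mem_normalizer_iff]
    intro z
    constructor
    · intro hz; rw [hcz z hz]; exact hz
    · intro hz
      have h1 := hcz _ hz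
      have h2 : h * z * h⁻¹ = z := by
        have h3 : h⁻¹ * (h * (h * z * h⁻¹) * h⁻¹) * h = h⁻¹ * (h * z * h⁻¹) * h := by rw [h1]
        calc h * z * h⁻¹ = h⁻¹ * (h * (h * z * h⁻¹) * h⁻¹) * h := by group
          _ = h⁻¹ * (h * z * h⁻¹) * h := h3
          _ = z := by group
      rw [h2] at hz; exact hz
  obtain ⟨l, hl⟩ := hFix M E S A p hAb hI h hh (Subgroup.zpowers y) hX hXc hN
  have hyl : y ^ l = y ^ 1 := by rw [pow_one, ← hl y hyA, hfix]
  have hl1 : l % p = 1 := by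
    have h1 := (pow_inj_mod).mp hyl
    rw [hord, Nat.mod_eq_of_lt hp.one_lt] at h1
    exact h1
  rw [Subgroup.mem_centralizer_iff]
  intro a ha
  have hap : a ^ p = 1 := hAb.elem.2 a ha
  have h3 : h * a * h⁻¹ = a := by
    rw [hl a ha, pow_eq_pow_mod l hap, hl1, pow_one]
  calc a * h = h * a * h⁻¹ * h := by rw [h3]
    _ = h * a := by group

/-- **S1421-ALPHA2N.** -/
theorem alpha2n [Finite G] (hG : IsMinSimpleOddOrder G) (h50 : St1350 G) (h96 : St1403 G)
    (h17 : St1417 G) (hBasic : StBasic G) (hFix : StFixScalar G) (hNorm : StNormArg G) :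
    StAlpha2n G := by
  intro M E S A p _ hAb hI Mst hMst hNS e q j hq hqp heE hord he0 hqσ hr1 hrM
  by_contra heA
  haveI : Fact q.Prime := ⟨hq⟩
  have hp : p.Prime := Fact.out
  obtain ⟨hOm, hCE, hEN, hNSA, -, -⟩ := hBasic M E S A p hAb
  obtain ⟨P0, hP0⟩ := hAb.syl
  have hSMst : S ≤ Mst := Subgroup.le_normalizer.trans hNS
  have hEMst : E ≤ Mst := hAb.norm.trans hNS
  have heMst : e ∈ Mst := hEMst heE
  -- `q ∈ τ₂(M*)`
  have hqτ : q ∈ tau2 Mst := by
    refine ⟨hq, hqσ, ?_, hr1⟩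
    by_contra h2
    exact hqσ (alpha_subset_sigma hG h96 hMst ⟨hq, h2⟩)
  -- `p ∈ σ(M*)`, `S ≤ M*_σ`
  have hpdvd : p ∣ Nat.card Mst := by
    have h1 : Nat.card A ∣ Nat.card Mst := Subgroup.card_dvd_of_le (hAb.AS.trans hSMst)
    rw [hAb.card] at h1
    exact (dvd_pow_self p (by norm_num)).trans h1
  have hpσ : p ∈ sigma Mst := mem_sigma_of_sylow P0 hP0 hpdvd hNS
  have hSpg : IsPGroup p S := hP0 ▸ P0.isPGroup'
  have hSσ : S ≤ sigmaCore Mst :=
    Cfsg.Agent.H92.BG12.le_sigmaCore_of_mem h50 hMst hpσ hSpg hSMst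
  -- a Sylow `q`-subgroup of `M*` containing `e`
  have hepg : IsPGroup q (Subgroup.zpowers (⟨e, heMst⟩ : Mst)) := by
    refine IsPGroup.of_card (n := j + 1) ?_
    rw [Nat.card_zpowers, Subgroup.orderOf_mk, hord]
  obtain ⟨Q, hQ⟩ := hepg.exists_le_sylow
  have heQ : e ∈ (Q : Subgroup Mst).map Mst.subtype :=
    Subgroup.mem_map.mpr ⟨⟨e, heMst⟩, hQ (Subgroup.mem_zpowers _), rfl⟩
  obtain ⟨B, hBQ, hBel, hBcard⟩ := exists_elem_sq_in_sylow hr1 Q
  have hQM : (Q : Subgroup Mst).map Mst.subtype ≤ Mst := by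
    rintro x ⟨y, -, rfl⟩; exact y.2
  have hBM : B ≤ Mst := hBQ.trans hQM
  obtain ⟨hnil, hsyl, -, hcent, -, -⟩ := h17 Mst hMst q hqτ B ⟨hBM, hBel, hBcard⟩
  obtain ⟨hQc, hQ2⟩ := hsyl Q
  obtain ⟨hΩ, -⟩ := hQ2 hBQ
  -- `M* ≤ N_G(S)`
  have hMN : Mst ≤ normalizer (S : Set G) := by
    intro m hm
    have hmK : m ∈ normalizer (sigmaCore Mst : Set G) :=
      Cfsg.Agent.H54.BG11.le_normalizer_sigmaCore Mst hm
    have hmK' : m⁻¹ ∈ normalizer (sigmaCore Mst : Set G) := inv_mem hmK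
    rw [Subgroup.mem_normalizer_iff]
    intro s
    constructor
    · intro hs; exact conj_mem_of_nilpotent hnil P0 hP0 hSσ hmK hs
    · intro hs
      have h1 := conj_mem_of_nilpotent hnil P0 hP0 hSσ hmK' hs
      have h2 : m⁻¹ * (m * s * m⁻¹) * m⁻¹⁻¹ = s := by group
      rw [h2] at h1; exact h1
  have hQcomm : ∀ x ∈ (Q : Subgroup Mst).map Mst.subtype,
      ∀ y ∈ (Q : Subgroup Mst).map Mst.subtype, x * y = y * x := by
    rintro x ⟨x', hx', rfl⟩ y ⟨y', hy', rfl⟩
    have h1 := hQc.1.1 ⟨x', hx'⟩ ⟨y', hy'⟩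
    have h2 : x' * y' = y' * x' := congrArg Subtype.val h1
    rw [← map_mul, h2, map_mul]
  have hA1 : 1 < Nat.card A := by
    rw [hAb.card]; exact Nat.one_lt_pow (by norm_num) hp.one_lt
  -- some `a ∈ B` does not centralize `A`
  have hex : ∃ a ∈ B, a ∉ centralizer (A : Set G) := by
    by_contra hne
    push Not at hne
    have hAle : A ≤ sigmaCore Mst ⊓ centralizer (B : Set G) := by
      intro x hx
      refine ⟨hSσ (hAb.AS hx), ?_⟩
      show x ∈ centralizer (B : Set G)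
      rw [Subgroup.mem_centralizer_iff]
      intro b hb
      exact ((Subgroup.mem_centralizer_iff.mp (hne b hb)) x hx).symm
    rw [hcent] at hAle
    have hAbot : Nat.card A = 1 := by
      rw [le_bot_iff.mp hAle]; exact Subgroup.card_bot
    omega
  obtain ⟨a, haB, haA⟩ := hex
  obtain ⟨i, hbA, hbq⟩ := exists_last_outside (centralizer (A : Set G)) q j e heA he0
  have hbE : e ^ (q ^ i) ∈ E := pow_mem heE _
  have hbQ : e ^ (q ^ i) ∈ (Q : Subgroup Mst).map Mst.subtype := pow_mem heQ _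
  have haQ : a ∈ (Q : Subgroup Mst).map Mst.subtype := hBQ haB
  have haNS : a ∈ normalizer (S : Set G) := hMN (hBM haB)
  have hbNS : e ^ (q ^ i) ∈ normalizer (S : Set G) := hAb.norm hbE
  have hab : a * e ^ (q ^ i) = e ^ (q ^ i) * a := hQcomm a haQ _ hbQ
  have haq : a ^ q = 1 := hBel.2 a haB
  have hAne : A ≠ ⊥ := by
    intro h
    have hAbot : Nat.card A = 1 := by rw [h]; exact Subgroup.card_bot
    omega
  obtain ⟨⟨x, hxA⟩, hx1⟩ := Subgroup.ne_bot_iff_exists_ne_one.mp hAne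
  have hx1' : x ≠ 1 := fun h => hx1 (Subtype.ext h)
  have hxq : x ^ q ≠ 1 := by
    intro hxq
    have hxp : x ^ p = 1 := hAb.elem.2 x hxA
    have hd : orderOf x ∣ Nat.gcd q p :=
      Nat.dvd_gcd (orderOf_dvd_of_pow_eq_one hxq) (orderOf_dvd_of_pow_eq_one hxp)
    have hc : Nat.gcd q p = 1 := (Nat.coprime_primes hq hp).mpr hqp
    rw [hc, Nat.dvd_one] at hd
    exact hx1' (orderOf_eq_one_iff.mp hd)
  have hAcomm : ∀ x ∈ A, ∀ y ∈ A, x * y = y * x :=
    fun x hx y hy => hAb.comm x (hAb.AS hx) y (hAb.AS hy)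
  have haNA : a ∈ normalizer (A : Set G) := hNSA haNS
  have hbNA : e ^ (q ^ i) ∈ normalizer (A : Set G) := hEN hbE
  have haqC : a ^ q ∈ centralizer (A : Set G) := by rw [haq]; exact one_mem _
  rcases hNorm A a (e ^ (q ^ i)) q hq hAcomm haNA hbNA hab haqC hbq x hxA hxq with
    ⟨y, hyA, hy1, hfix⟩ | ⟨m, -, y, hyA, hy1, hfix⟩
  · exact hbA (mem_centralizer_of_fix hFix hAb hI hbNS hyA hy1 hfix)
  · have habm : a * (e ^ (q ^ i)) ^ m ∈ centralizer (A : Set G) :=
      mem_centralizer_of_fix hFix hAb hI (mul_mem haNS (pow_mem hbNS m)) hyA hy1 hfix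
    have haE : a ∈ E := by
      have h1 : a * (e ^ (q ^ i)) ^ m ∈ E := hCE habm
      have h2 : (e ^ (q ^ i)) ^ m ∈ E := pow_mem hbE m
      have h3 : a = a * (e ^ (q ^ i)) ^ m * ((e ^ (q ^ i)) ^ m)⁻¹ := by group
      rw [h3]; exact mul_mem h1 (inv_mem h2)
    have he0q : (e ^ (q ^ j)) ^ q = 1 := by
      rw [← pow_mul, ← pow_succ, ← hord, pow_orderOf_eq_one]
    have he0ne : e ^ (q ^ j) ≠ 1 := by
      intro h
      have hd : orderOf e ∣ q ^ j := orderOf_dvd_of_pow_eq_one h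
      rw [hord] at hd
      have := (Nat.pow_dvd_pow_iff_le_right hq.one_lt).mp hd
      omega
    have he0ord : orderOf (e ^ (q ^ j)) = q := orderOf_eq_prime he0q he0ne
    have he0Q : e ^ (q ^ j) ∈ (Q : Subgroup Mst).map Mst.subtype := pow_mem heQ _
    have he0B : e ^ (q ^ j) ∈ B := (hΩ _ he0Q).mp he0q
    have he0E : e ^ (q ^ j) ∈ E := pow_mem heE _
    have hDcard : q ^ 1 < Nat.card (B ⊓ E : Subgroup G) := by
      have hzD : Subgroup.zpowers (e ^ (q ^ j)) ≤ B ⊓ E :=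
        (Subgroup.zpowers_le).mpr ⟨he0B, he0E⟩
      have hzc : Nat.card (Subgroup.zpowers (e ^ (q ^ j))) = q := by
        rw [Nat.card_zpowers, he0ord]
      by_contra hlt
      push Not at hlt
      have hge : Nat.card (B ⊓ E : Subgroup G) ≤ Nat.card (Subgroup.zpowers (e ^ (q ^ j))) := by
        rw [hzc]; simpa using hlt
      have heq : Subgroup.zpowers (e ^ (q ^ j)) = B ⊓ E := Subgroup.eq_of_le_of_card_ge hzD hge
      have haD : a ∈ B ⊓ E := ⟨haB, haE⟩
      rw [← heq] at haD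
      exact haA ((Subgroup.zpowers_le (H := centralizer (A : Set G))).mpr he0 haD)
    have hDM : B ⊓ E ≤ M := inf_le_right.trans hAb.compl.1
    have hle := hrM ((B ⊓ E).subgroupOf M) ?_ ?_
    · rw [Nat.card_congr (Subgroup.subgroupOfEquivOfLe hDM).toEquiv] at hle
      omega
    · refine ⟨⟨fun u v => Subtype.ext (Subtype.ext ?_)⟩⟩
      have hu : ((u : M) : G) ∈ B := (Subgroup.mem_subgroupOf.mp u.2).1
      have hv : ((v : M) : G) ∈ B := (Subgroup.mem_subgroupOf.mp v.2).1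
      have h1 := hBel.1.1.1 ⟨_, hu⟩ ⟨_, hv⟩
      show ((u : M) : G) * ((v : M) : G) = ((v : M) : G) * ((u : M) : G)
      exact congrArg Subtype.val h1
    · intro u hu
      have hu' : (u : G) ∈ B := (Subgroup.mem_subgroupOf.mp hu).1
      apply Subtype.ext
      simpa using hBel.2 _ hu'

example [Finite G] (hG : IsMinSimpleOddOrder G) (h50 : St1350 G) (h96 : St1403 G)
    (h17 : St1417 G) (hBasic : Cfsg.Agent.H38.BG161.StBasic G)
    (hFix : Cfsg.Agent.H38.BG161.StFixScalar G) (hNorm : Cfsg.Agent.H38.BG161.StNormArg G) :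
    Cfsg.Agent.H38.BG161.StAlpha2n G := alpha2n hG h50 h96 h17 hBasic hFix hNorm

end Cfsg.Agent.H29.BG161
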