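import Mathlib
import Cfsg.Agent.H67.BRCpFalse
import Cfsg.Agent.H23.BRPerf

set_option autoImplicit false
set_option linter.style.haveILetI false
set_option linter.unusedSectionVars false
set_option linter.unusedVariables false

/-!
# Brauer–Reynolds master theorem, piece BRM-RSIMPLE (helper29, for helper21)

A perfect finite group with a self-centralizing Sylow `p`-subgroup of order `p` and fewer than
`(p + 1)²` Sylow `p`-subgroups is simple.
-/

namespace Cfsg.Agent.H29.BRM

open scoped Pointwise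

/-- Membership in a conjugate Sylow subgroup. -/
theorem mem_smul_sylow {G : Type*} [Group G] {p : ℕ} (g : G) (P : Sylow p G) (x : G) :
    x ∈ ((g • P : Sylow p G) : Subgroup G) ↔ g⁻¹ * x * g ∈ (P : Subgroup G) := by
  rw [Sylow.coe_subgroup_smul, Subgroup.mem_pointwise_smul_iff_inv_smul_mem]
  simp [MulAut.smul_def]

/-- Conjugates of a self-centralizing Sylow subgroup are self-centralizing. -/
theorem centralizer_smul_sylow {G : Type*} [Group G] {p : ℕ} (g : G) (P : Sylow p G)
    (hC : Subgroup.centralizer ((P : Subgroup G) : Set G) = (P : Subgroup G)) :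
    Subgroup.centralizer (((g • P : Sylow p G) : Subgroup G) : Set G) =
      ((g • P : Sylow p G) : Subgroup G) := by
  ext c
  have key : g⁻¹ * c * g ∈ (P : Subgroup G) ↔
      g⁻¹ * c * g ∈ Subgroup.centralizer ((P : Subgroup G) : Set G) := by rw [hC]
  rw [mem_smul_sylow, key, Subgroup.mem_centralizer_iff, Subgroup.mem_centralizer_iff]
  constructor
  · intro h x hx
    have h1 : g * x * g⁻¹ ∈ ((g • P : Sylow p G) : Subgroup G) := by
      rw [mem_smul_sylow]
      have h0 : g⁻¹ * (g * x * g⁻¹) * g = x := by group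
      rw [h0]; exact hx
    have h2 := h _ h1
    calc x * (g⁻¹ * c * g) = g⁻¹ * (g * x * g⁻¹ * c) * g := by group
      _ = g⁻¹ * (c * (g * x * g⁻¹)) * g := by rw [h2]
      _ = g⁻¹ * c * g * x := by group
  · intro h y hy
    have h1 : g⁻¹ * y * g ∈ (P : Subgroup G) := (mem_smul_sylow g P y).mp hy
    have h2 := h _ h1
    calc y * c = g * ((g⁻¹ * y * g) * (g⁻¹ * c * g)) * g⁻¹ := by group
      _ = g * ((g⁻¹ * c * g) * (g⁻¹ * y * g)) * g⁻¹ := by rw [h2]
      _ = c * y := by group

/-- A `p'`-element of a normal `p'`-subgroup `K` normalizing a self-centralizing Sylow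
`p`-subgroup `Q` of order `p` is trivial. -/
theorem eq_one_of_mem_normalizer {G : Type*} [Group G] [Finite G] {p : ℕ} [Fact p.Prime]
    (K : Subgroup G) [hK : K.Normal] (hpK : ¬ p ∣ Nat.card K) (Q : Sylow p G)
    (hQ : Nat.card (Q : Subgroup G) = p)
    (hCQ : Subgroup.centralizer ((Q : Subgroup G) : Set G) = (Q : Subgroup G))
    {c : G} (hcK : c ∈ K) (hcN : c ∈ Subgroup.normalizer ((Q : Subgroup G) : Set G)) :
    c = 1 := by
  have hp : p.Prime := Fact.out
  have hcop : Nat.Coprime (Nat.card (Q : Subgroup G)) (Nat.card K) := by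
    rw [hQ]; exact (Nat.Prime.coprime_iff_not_dvd hp).mpr hpK
  have hbot : (Q : Subgroup G) ⊓ K = ⊥ := (Subgroup.disjoint_of_coprime_natCard hcop).eq_bot
  have h1 : ∀ x, x ∈ (Q : Subgroup G) → x ∈ K → x = 1 := by
    intro x hx hxK
    have h0 : x ∈ (Q : Subgroup G) ⊓ K := ⟨hx, hxK⟩
    rw [hbot] at h0
    exact Subgroup.mem_bot.mp h0
  have hcC : c ∈ Subgroup.centralizer ((Q : Subgroup G) : Set G) := by
    rw [Subgroup.mem_centralizer_iff]
    intro x hx
    have hx' : x ∈ (Q : Subgroup G) := hx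
    have h2 : c * x * c⁻¹ ∈ (Q : Subgroup G) := (Subgroup.mem_normalizer_iff.mp hcN x).mp hx'
    have h3 : c * x * c⁻¹ * x⁻¹ ∈ (Q : Subgroup G) := mul_mem h2 (inv_mem hx')
    have h4 : c * x * c⁻¹ * x⁻¹ ∈ K := by
      have h40 : x * c⁻¹ * x⁻¹ ∈ K := hK.conj_mem _ (inv_mem hcK) x
      have h5 : c * x * c⁻¹ * x⁻¹ = c * (x * c⁻¹ * x⁻¹) := by group
      rw [h5]; exact mul_mem hcK h40
    have h6 := h1 _ h3 h4
    calc x * c = (c * x * c⁻¹ * x⁻¹)⁻¹ * (c * x) := by group
      _ = c * x := by rw [h6]; group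
  rw [hCQ] at hcC
  exact h1 c hcC hcK

/-- Case `p ∣ |K|`: `K = ⊤`. -/
theorem eq_top_of_dvd {G : Type*} [Group G] [Finite G] (hperf : commutator G = ⊤) (p : ℕ)
    [Fact p.Prime] (P : Sylow p G) (hP : Nat.card (P : Subgroup G) = p)
    (hC : Subgroup.centralizer ((P : Subgroup G) : Set G) = (P : Subgroup G))
    (K : Subgroup G) [hK : K.Normal] (hpK : p ∣ Nat.card K) : K = ⊤ := by
  have hp : p.Prime := Fact.out
  -- `P ≤ K`
  obtain ⟨k, hk⟩ := exists_prime_orderOf_dvd_card' (G := K) p hpK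
  have hk' : orderOf (k : G) = p := by rw [Subgroup.orderOf_coe]; exact hk
  have hzpg : IsPGroup p (Subgroup.zpowers (k : G)) :=
    IsPGroup.of_card (n := 1) (by rw [Nat.card_zpowers, hk', pow_one])
  obtain ⟨Q, hQ⟩ := hzpg.exists_le_sylow
  obtain ⟨g, hg⟩ := MulAction.exists_smul_eq G Q P
  have hQcard : Nat.card (Q : Subgroup G) = p :=
    (Nat.card_congr (Sylow.equiv Q P).toEquiv).trans hP
  have hQeq : Subgroup.zpowers (k : G) = (Q : Subgroup G) :=
    Subgroup.eq_of_le_of_card_ge hQ (by rw [hQcard, Nat.card_zpowers, hk'])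
  have hQK : (Q : Subgroup G) ≤ K := by
    rw [← hQeq, Subgroup.zpowers_le]; exact k.2
  have hPK : (P : Subgroup G) ≤ K := by
    intro x hx
    rw [← hg, mem_smul_sylow] at hx
    have h1 := hK.conj_mem _ (hQK hx) g
    have h2 : g * (g⁻¹ * x * g) * g⁻¹ = x := by group
    rw [h2] at h1; exact h1
  -- Frattini
  have hfr : Subgroup.normalizer ((P : Subgroup G) : Set G) ⊔ K = ⊤ := by
    have h1 := Sylow.normalizer_sup_eq_top (P.subtype hPK)
    rwa [Sylow.coe_subtype, Subgroup.map_subgroupOf_eq_of_le hPK] at h1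
  -- a generator of `P`
  obtain ⟨z, hz⟩ : ∃ z : G, Subgroup.zpowers z = (P : Subgroup G) := by
    obtain ⟨z0, hz0⟩ := exists_prime_orderOf_dvd_card' (G := (P : Subgroup G)) p (by rw [hP])
    refine ⟨(z0 : G), Subgroup.eq_of_le_of_card_ge ((Subgroup.zpowers_le).mpr z0.2) ?_⟩
    rw [Nat.card_zpowers, Subgroup.orderOf_coe, hz0, hP]
  have hpow : ∀ n ∈ Subgroup.normalizer ((P : Subgroup G) : Set G),
      ∃ a : ℤ, n * z * n⁻¹ = z ^ a := by
    intro n hn
    have hzP : z ∈ (P : Subgroup G) := hz ▸ Subgroup.mem_zpowers z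
    have h1 : n * z * n⁻¹ ∈ (P : Subgroup G) := (Subgroup.mem_normalizer_iff.mp hn z).mp hzP
    rw [← hz] at h1
    obtain ⟨a, ha⟩ := Subgroup.mem_zpowers_iff.mp h1
    exact ⟨a, ha.symm⟩
  have hcommN : ∀ n1 ∈ Subgroup.normalizer ((P : Subgroup G) : Set G),
      ∀ n2 ∈ Subgroup.normalizer ((P : Subgroup G) : Set G),
      (n2 * n1)⁻¹ * (n1 * n2) ∈ K := by
    intro n1 h1 n2 h2
    obtain ⟨a1, ha1⟩ := hpow n1 h1
    obtain ⟨a2, ha2⟩ := hpow n2 h2
    have e12 : (n1 * n2) * z * (n1 * n2)⁻¹ = z ^ (a2 * a1) := by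
      calc (n1 * n2) * z * (n1 * n2)⁻¹ = n1 * (n2 * z * n2⁻¹) * n1⁻¹ := by group
        _ = n1 * z ^ a2 * n1⁻¹ := by rw [ha2]
        _ = (n1 * z * n1⁻¹) ^ a2 := by rw [conj_zpow]
        _ = z ^ (a1 * a2) := by rw [ha1, ← zpow_mul]
        _ = z ^ (a2 * a1) := by rw [mul_comm]
    have e21 : (n2 * n1) * z * (n2 * n1)⁻¹ = z ^ (a2 * a1) := by
      calc (n2 * n1) * z * (n2 * n1)⁻¹ = n2 * (n1 * z * n1⁻¹) * n2⁻¹ := by group
        _ = n2 * z ^ a1 * n2⁻¹ := by rw [ha1]
        _ = (n2 * z * n2⁻¹) ^ a1 := by rw [conj_zpow]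
        _ = z ^ (a2 * a1) := by rw [ha2, ← zpow_mul]
    have hcz : ((n2 * n1)⁻¹ * (n1 * n2)) * z = z * ((n2 * n1)⁻¹ * (n1 * n2)) := by
      have h0 : (n1 * n2) * z * (n1 * n2)⁻¹ = (n2 * n1) * z * (n2 * n1)⁻¹ := by rw [e12, e21]
      calc ((n2 * n1)⁻¹ * (n1 * n2)) * z
          = (n2 * n1)⁻¹ * ((n1 * n2) * z * (n1 * n2)⁻¹) * (n1 * n2) := by group
        _ = (n2 * n1)⁻¹ * ((n2 * n1) * z * (n2 * n1)⁻¹) * (n1 * n2) := by rw [h0]
        _ = z * ((n2 * n1)⁻¹ * (n1 * n2)) := by group
    have hcC : (n2 * n1)⁻¹ * (n1 * n2) ∈ Subgroup.centralizer ((P : Subgroup G) : Set G) := by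
      rw [Subgroup.mem_centralizer_iff]
      intro x hx
      have hx' : x ∈ Subgroup.zpowers z := by rw [hz]; exact hx
      obtain ⟨i, rfl⟩ := Subgroup.mem_zpowers_iff.mp hx'
      exact ((Commute.zpow_right (show Commute ((n2 * n1)⁻¹ * (n1 * n2)) z from hcz) i).eq).symm
    rw [hC] at hcC
    exact hPK hcC
  have hrep : ∀ g : G, ∃ n ∈ Subgroup.normalizer ((P : Subgroup G) : Set G),
      (QuotientGroup.mk' K) g = (QuotientGroup.mk' K) n := by
    intro g
    have hg : g ∈ Subgroup.normalizer ((P : Subgroup G) : Set G) ⊔ K := by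
      rw [hfr]; exact Subgroup.mem_top g
    obtain ⟨n, hn, k, hk, rfl⟩ := Subgroup.mem_sup_of_normal_right.mp hg
    refine ⟨n, hn, ?_⟩
    rw [map_mul]
    have h0 : (QuotientGroup.mk' K) k = 1 := (QuotientGroup.eq_one_iff k).mpr hk
    rw [h0, mul_one]
  have hle : commutator G ≤ (QuotientGroup.mk' K).ker := by
    apply Cfsg.Agent.H67.BR.commutator_le_ker_of_comm
    intro a b
    obtain ⟨n1, h1, e1⟩ := hrep a
    obtain ⟨n2, h2, e2⟩ := hrep b
    rw [e1, e2, ← map_mul, ← map_mul]
    symm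
    exact (QuotientGroup.eq).mpr (hcommN n1 h1 n2 h2)
  rw [hperf, QuotientGroup.ker_mk'] at hle
  exact top_le_iff.mp hle

/-- Case `p ∤ |K|`, `K ≠ ⊥`: impossible. -/
theorem false_of_not_dvd {G : Type*} [Group G] [Finite G] (hperf : commutator G = ⊤) (p : ℕ)
    [Fact p.Prime] (P : Sylow p G) (hP : Nat.card (P : Subgroup G) = p)
    (hC : Subgroup.centralizer ((P : Subgroup G) : Set G) = (P : Subgroup G))
    (hlt : Nat.card (Sylow p G) < (p + 1) ^ 2)
    (K : Subgroup G) [hK : K.Normal] (hK1 : K ≠ ⊥) (hpK : ¬ p ∣ Nat.card K) : False := by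
  have hp : p.Prime := Fact.out
  have hall : ∀ Q : Sylow p G, Nat.card (Q : Subgroup G) = p ∧
      Subgroup.centralizer ((Q : Subgroup G) : Set G) = (Q : Subgroup G) := by
    intro Q
    obtain ⟨g, rfl⟩ := MulAction.exists_smul_eq G P Q
    exact ⟨(Nat.card_congr (Sylow.equivSMul P g).symm.toEquiv).trans hP,
      centralizer_smul_sylow g P hC⟩
  -- (a) `|K| ≥ p + 1`
  have hKcard : p + 1 ≤ Nat.card K := by
    let φ : (P : Subgroup G) →* MulAut K :=
      (MulAut.conjNormal (H := K)).comp (P : Subgroup G).subtype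
    letI : MulAction (P : Subgroup G) K := MulAction.compHom K φ
    have hmod := P.isPGroup'.card_modEq_card_fixedPoints K
    have hfix : MulAction.fixedPoints (P : Subgroup G) K = {1} := by
      ext k
      rw [MulAction.mem_fixedPoints, Set.mem_singleton_iff]
      constructor
      · intro h
        have hkC : (k : G) ∈ Subgroup.centralizer ((P : Subgroup G) : Set G) := by
          rw [Subgroup.mem_centralizer_iff]
          intro x hx
          have h1 : φ ⟨x, hx⟩ k = k := h ⟨x, hx⟩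
          have h2 : x * (k : G) * x⁻¹ = k := by
            have h3 := congrArg Subtype.val h1
            simpa [φ] using h3
          calc x * (k : G) = x * k * x⁻¹ * x := by group
            _ = k * x := by rw [h2]
        rw [hC] at hkC
        have hcop : Nat.Coprime (Nat.card (P : Subgroup G)) (Nat.card K) := by
          rw [hP]; exact (Nat.Prime.coprime_iff_not_dvd hp).mpr hpK
        have hbot : (P : Subgroup G) ⊓ K = ⊥ := (Subgroup.disjoint_of_coprime_natCard hcop).eq_bot
        have h0 : (k : G) ∈ (P : Subgroup G) ⊓ K := ⟨hkC, k.2⟩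
        rw [hbot] at h0
        exact Subtype.ext (Subgroup.mem_bot.mp h0)
      · rintro rfl m
        exact map_one (φ m)
    rw [hfix] at hmod
    have h1 : Nat.card (({1} : Set K)) = 1 := by simp
    rw [h1] at hmod
    have hne : Nat.card K ≠ 1 := fun h => hK1 (Subgroup.card_eq_one.mp h)
    unfold Nat.ModEq at hmod
    rw [Nat.mod_eq_of_lt hp.one_lt] at hmod
    by_contra hlt'
    have hle : Nat.card K ≤ p := by omega
    rcases Nat.lt_or_eq_of_le hle with h | h
    · rw [Nat.mod_eq_of_lt h] at hmod; exact hne hmod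
    · rw [h, Nat.mod_self] at hmod; omega
  -- (b) `n_p(G/K) ≥ p + 1`
  have hQcard : p + 1 ≤ Nat.card (Sylow p (G ⧸ K)) := by
    have hperfQ := Cfsg.Agent.H23.BR.perfect_quot hperf K
    have hcard : Nat.card G = Nat.card (G ⧸ K) * Nat.card K :=
      Subgroup.card_eq_card_quotient_mul_card_subgroup K
    have hpG : p ∣ Nat.card G := hP ▸ Subgroup.card_subgroup_dvd_card (P : Subgroup G)
    have hp2G : ¬ p ^ 2 ∣ Nat.card G := by
      intro h
      have h1 := Sylow.card_eq_multiplicity P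
      rw [hP] at h1
      have hfac : (Nat.card G).factorization p = 1 := by
        have h3 : p ^ 1 = p ^ (Nat.card G).factorization p := by rw [pow_one]; exact h1
        exact (Nat.pow_right_injective hp.two_le h3).symm
      have h2le : 2 ≤ (Nat.card G).factorization p :=
        (hp.pow_dvd_iff_le_factorization (Nat.card_pos.ne')).mp h
      omega
    have hpQ : p ∣ Nat.card (G ⧸ K) := by
      rw [hcard] at hpG
      exact (hp.dvd_mul.mp hpG).resolve_right hpK
    have hp2Q : ¬ p ^ 2 ∣ Nat.card (G ⧸ K) := fun h =>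
      hp2G (by rw [hcard]; exact Dvd.dvd.mul_right h _)
    have hmod := card_sylow_modEq_one p (G ⧸ K)
    have hne : Nat.card (Sylow p (G ⧸ K)) ≠ 1 := by
      intro h1
      haveI : Subsingleton (Sylow p (G ⧸ K)) := (Nat.card_eq_one_iff_unique.mp h1).1
      obtain ⟨Qb⟩ : Nonempty (Sylow p (G ⧸ K)) := inferInstance
      have hn : (Qb : Subgroup (G ⧸ K)).Normal := Sylow.normal_of_subsingleton Qb
      have hc : Nat.card (Qb : Subgroup (G ⧸ K)) = p := by
        have h2 := Sylow.card_eq_multiplicity Qb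
        have hfac : (Nat.card (G ⧸ K)).factorization p = 1 := by
          have ha : 1 ≤ (Nat.card (G ⧸ K)).factorization p :=
            (hp.pow_dvd_iff_le_factorization (Nat.card_pos.ne')).mp (by rwa [pow_one])
          have hb : ¬ 2 ≤ (Nat.card (G ⧸ K)).factorization p := fun h =>
            hp2Q ((hp.pow_dvd_iff_le_factorization (Nat.card_pos.ne')).mpr h)
          omega
        rw [hfac, pow_one] at h2
        exact h2
      exact Cfsg.Agent.H67.BR.normal_sylow_false p hperfQ hp2Q (Qb : Subgroup (G ⧸ K)) hn hc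
    unfold Nat.ModEq at hmod
    rw [Nat.mod_eq_of_lt hp.one_lt] at hmod
    have hpos : 0 < Nat.card (Sylow p (G ⧸ K)) := Nat.card_pos
    by_contra hlt'
    have hle : Nat.card (Sylow p (G ⧸ K)) ≤ p := by omega
    rcases Nat.lt_or_eq_of_le hle with h | h
    · rw [Nat.mod_eq_of_lt h] at hmod; exact hne hmod
    · rw [h, Nat.mod_self] at hmod; omega
  -- (c) the injection `Sylow p (G/K) × K → Sylow p G`
  have hinj : Nat.card (Sylow p (G ⧸ K)) * Nat.card K ≤ Nat.card (Sylow p G) := by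
    have hπ : Function.Surjective (QuotientGroup.mk' K) := QuotientGroup.mk'_surjective K
    let Φ : Sylow p G → Sylow p (G ⧸ K) := fun Q => Q.mapSurjective hπ
    have hΦ : Function.Surjective Φ := Sylow.mapSurjective_surjective hπ p
    let sec : Sylow p (G ⧸ K) → Sylow p G := Function.surjInv hΦ
    have hsec : ∀ Qb, Φ (sec Qb) = Qb := Function.surjInv_eq hΦ
    have hΦk : ∀ (k : K) (Q : Sylow p G), Φ ((k : G) • Q) = Φ Q := by
      intro k Q
      have hk1 : (QuotientGroup.mk' K) (k : G) = 1 := (QuotientGroup.eq_one_iff _).mpr k.2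
      apply Sylow.ext
      ext y
      simp only [Φ, Sylow.coe_mapSurjective, Subgroup.mem_map]
      constructor
      · rintro ⟨x, hx, rfl⟩
        rw [mem_smul_sylow] at hx
        refine ⟨_, hx, ?_⟩
        rw [map_mul, map_mul, map_inv, hk1]; simp
      · rintro ⟨x, hx, rfl⟩
        refine ⟨(k : G) * x * (k : G)⁻¹, ?_, ?_⟩
        · rw [mem_smul_sylow]
          have h0 : (k : G)⁻¹ * ((k : G) * x * (k : G)⁻¹) * (k : G) = x := by group
          rw [h0]; exact hx
        · rw [map_mul, map_mul, map_inv, hk1]; simp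
    rw [← Nat.card_prod]
    apply Nat.card_le_card_of_injective
      (fun x : Sylow p (G ⧸ K) × K => ((x.2 : G) • sec x.1 : Sylow p G))
    rintro ⟨Q1, k1⟩ ⟨Q2, k2⟩ h
    simp only at h
    have hQ : Q1 = Q2 := by
      have h0 := congrArg Φ h
      rw [hΦk, hΦk, hsec, hsec] at h0
      exact h0
    subst hQ
    have h2 : ((k2 : G)⁻¹ * (k1 : G)) • sec Q1 = sec Q1 := by
      rw [mul_smul, h, inv_smul_smul]
    have h3 : (k2 : G)⁻¹ * (k1 : G) ∈
        Subgroup.normalizer (((sec Q1 : Sylow p G) : Subgroup G) : Set G) :=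
      Sylow.smul_eq_iff_mem_normalizer.mp h2
    have h4 := eq_one_of_mem_normalizer K hpK (sec Q1) (hall _).1 (hall _).2
      (mul_mem (inv_mem k2.2) k1.2) h3
    have h5 : (k1 : G) = k2 := by
      calc (k1 : G) = k2 * ((k2 : G)⁻¹ * k1) := by group
        _ = k2 := by rw [h4, mul_one]
    exact Prod.ext rfl (Subtype.ext h5)
  have hfin : (p + 1) * (p + 1) ≤ Nat.card (Sylow p G) :=
    (Nat.mul_le_mul hQcard hKcard).trans hinj
  rw [pow_two] at hlt
  exact absurd hfin (not_le.mpr hlt)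

/-- **BRM-RSIMPLE.** -/
theorem simple_of_perfect_self_centralizing {G : Type*} [Group G] [Finite G]
    (hperf : commutator G = ⊤) (p : ℕ) [Fact p.Prime] (P : Sylow p G)
    (hP : Nat.card (P : Subgroup G) = p)
    (hC : Subgroup.centralizer ((P : Subgroup G) : Set G) = (P : Subgroup G))
    (hlt : Nat.card (Sylow p G) < (p + 1) ^ 2) : IsSimpleGroup G := by
  have hp : p.Prime := Fact.out
  haveI : Nontrivial G := by
    have h1 : 1 < Nat.card G := by
      have h0 := Subgroup.card_le_card_group (P : Subgroup G)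
      rw [hP] at h0
      exact lt_of_lt_of_le hp.one_lt h0
    exact Finite.one_lt_card_iff_nontrivial.mp h1
  refine { exists_pair_ne := exists_pair_ne G, eq_bot_or_eq_top_of_normal := fun K hK => ?_ }
  haveI := hK
  by_cases hK1 : K = ⊥
  · exact Or.inl hK1
  · right
    by_cases hpK : p ∣ Nat.card K
    · exact eq_top_of_dvd hperf p P hP hC K hpK
    · exact (false_of_not_dvd hperf p P hP hC hlt K hK1 hpK).elim

example : ∀ {G : Type*} [Group G] [Finite G]
    (hperf : commutator G = ⊤) (p : ℕ) [Fact p.Prime] (P : Sylow p G)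
    (hP : Nat.card (P : Subgroup G) = p)
    (hC : Subgroup.centralizer ((P : Subgroup G) : Set G) = (P : Subgroup G))
    (hlt : Nat.card (Sylow p G) < (p + 1) ^ 2), IsSimpleGroup G :=
  @simple_of_perfect_self_centralizing

end Cfsg.Agent.H29.BRM
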