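import Cfsg.Agent.H52.JxDefs
import Cfsg.Agent.H48.JyV
import Cfsg.Agent.H66.JyOz
import Cfsg.Agent.H29.R1Out

/-!
# S2953 / JY-KILL2, piece (X5) KB-NORM: abstract glue `kb_abs` and the G-level wrapper

`kbNorm_of (hPS : StPSide) (hPF : StPF) (hVne : StVne) : StKBNorm`, where `StPSide` collects the
three P-side facts used (`O₂(K) ≤ O₂(K ⊔ T)`, index 2, `T ∖ O₂(K ⊔ T)` inverts `K / O₂(K)`).
-/

set_option autoImplicit false
open Cfsg

namespace Cfsg.Agent.H29.Jx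

open Cfsg.Agent.H64.Jz Cfsg.Agent.H64.Jy Cfsg.Agent.H52.Jx

universe u

/-- Abstract glue: the interface facts give the hypotheses of `r1_out_core`. -/
theorem kb_abs {G : Type u} [Group G] [Finite G] (V S L T K O D N : Subgroup G) (z : G)
    (hV4 : Nat.card ↥V = 4) (hV2 : ∀ v ∈ V, v * v = 1)
    (hSV : S ≤ Subgroup.normalizer (V : Set G)) (hzV : z ∈ V) (hz1 : z ≠ 1)
    (hzS : ∀ s ∈ S, s * z = z * s) (hCz : Subgroup.centralizer ({z} : Set G) ≤ L)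
    (hTS : T ≤ S) (hVT : V ≤ T) (hKL : ¬ K ≤ L) (hOL : O ≤ L) (hOK : O ≤ K)
    (hO2 : IsPGroup 2 ↥O) (hidx : O.relIndex K = 3)
    (hinv : ∀ x ∈ T, x ∉ D → ∀ g ∈ K, x * g * x⁻¹ * g ∈ O) (hDT : D ≤ T)
    (hDK : K ≤ Subgroup.normalizer (D : Set G)) (hDTn : T ≤ Subgroup.normalizer (D : Set G))
    (hD2 : ∀ a ∈ T, ∀ b ∈ T, a ∉ D → b ∉ D → a * b ∈ D) (hOD : O ≤ D)
    (hzN : z ∈ N) (hKN : K ≤ Subgroup.normalizer (N : Set G)) (hON : O ≤ N)
    (hN2 : IsPGroup 2 ↥N) (hVD : ¬ V ≤ D) :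
    ∀ s ∈ S, s ∈ Subgroup.normalizer (T : Set G) → s ∈ Subgroup.normalizer (D : Set G) := by
  classical
  have h3K : 3 ∣ Nat.card ↥K := by
    have h := Subgroup.relIndex_dvd_card O K
    rwa [hidx] at h
  haveI : Fact (Nat.Prime 3) := ⟨Nat.prime_three⟩
  obtain ⟨k0, hk0⟩ := exists_prime_orderOf_dvd_card' 3 h3K
  obtain ⟨k, hkK, hk0eq⟩ : ∃ k ∈ K, k = (k0 : G) := ⟨k0, k0.2, rfl⟩
  have hko : orderOf k = 3 := by rw [hk0eq, Subgroup.orderOf_coe]; exact hk0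
  have hk3 : k ^ 3 = 1 := by rw [← hko]; exact pow_orderOf_eq_one k
  have hno : ∀ X : Subgroup G, IsPGroup 2 ↥X → k ∉ X := by
    intro X hX hkX
    obtain ⟨n, hn⟩ := hX ⟨k, hkX⟩
    have hn' : k ^ (2 ^ n) = 1 := by
      have h := congrArg Subtype.val hn
      simpa using h
    have hdvd : 3 ∣ 2 ^ n := by rw [← hko]; exact orderOf_dvd_of_pow_eq_one hn'
    have h32 : 3 ∣ 2 := Nat.Prime.dvd_of_dvd_pow Nat.prime_three hdvd
    exact absurd h32 (by decide)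
  have hKLO : ∀ g ∈ K, g ∈ L → g ∈ O := by
    intro g hgK hgL
    have h1 : O ≤ K ⊓ L := le_inf hOK hOL
    have h2 : K ⊓ L ≤ K := inf_le_left
    have h3 := Subgroup.relIndex_mul_relIndex O (K ⊓ L) K h1 h2
    rw [hidx] at h3
    have h4 : (K ⊓ L).relIndex K ≠ 1 := by
      intro h
      rw [Subgroup.relIndex_eq_one] at h
      exact hKL (h.trans inf_le_right)
    have h5 : O.relIndex (K ⊓ L) = 1 := by
      have hb : (K ⊓ L).relIndex K ∣ 3 := Dvd.intro_left _ h3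
      rcases (Nat.dvd_prime Nat.prime_three).mp hb with hb' | hb'
      · exact absurd hb' h4
      · rw [hb'] at h3; omega
    rw [Subgroup.relIndex_eq_one] at h5
    exact h5 ⟨hgK, hgL⟩
  have hkz : k * z * k⁻¹ ≠ z := by
    intro h
    have hc : k ∈ Subgroup.centralizer ({z} : Set G) := by
      rw [Subgroup.mem_centralizer_singleton_iff]
      calc k * z = (k * z * k⁻¹) * k := by group
        _ = z * k := by rw [h]
    exact hno O hO2 (hKLO k hkK (hCz hc))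
  have hzT' : z ∈ T := hVT hzV
  have hzD : z ∈ D := by
    by_contra hzD
    have h1 : z * k * z⁻¹ * k ∈ N := hON (hinv z hzT' hzD k hkK)
    have h2 : k * z⁻¹ * k⁻¹ ∈ N :=
      (Subgroup.mem_normalizer_iff.mp (hKN hkK) z⁻¹).mp (N.inv_mem hzN)
    have h3 : z * (k * z⁻¹ * k⁻¹) ∈ N := N.mul_mem hzN h2
    have h4 : (z * (k * z⁻¹ * k⁻¹))⁻¹ * (z * k * z⁻¹ * k) ∈ N := N.mul_mem (N.inv_mem h3) h1
    have h5 : (z * (k * z⁻¹ * k⁻¹))⁻¹ * (z * k * z⁻¹ * k) = k * k := by group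
    rw [h5] at h4
    have h6 : (k * k) * (k * k) = k := by
      have h7 : (k * k) * (k * k) = k ^ 3 * k := by simp [pow_succ, mul_assoc]
      rw [h7, hk3, one_mul]
    exact hno N hN2 (h6 ▸ N.mul_mem h4 h4)
  obtain ⟨v, hvV, hvD⟩ : ∃ v ∈ V, v ∉ D := by
    by_contra h
    push Not at h
    exact hVD h
  have hvT : v ∈ T := hVT hvV
  have hv2 : v * v = 1 := hV2 v hvV
  have hvi : v⁻¹ = v := inv_eq_of_mul_eq_one_left hv2
  have hz2 : z * z = 1 := hV2 z hzV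
  have hzTc : ∀ t ∈ T, t * z = z * t := fun t ht => hzS t (hTS ht)
  have hTQv : ∀ t ∈ T, t ∈ D ∨ t * v ∈ D := by
    intro t ht
    by_cases h : t ∈ D
    · exact Or.inl h
    · exact Or.inr (hD2 t ht v hvT h hvD)
  have hVD2 : ∀ u ∈ V, u ∈ D → u = 1 ∨ u = z := by
    intro u huV huD
    have hle : V ⊓ D ≤ V := inf_le_left
    have hdvd : Nat.card ↥(V ⊓ D) ∣ 4 := by
      have h := Subgroup.card_dvd_of_le hle
      rwa [hV4] at h
    have hne4 : Nat.card ↥(V ⊓ D) ≠ 4 := by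
      intro h
      have h' : V ⊓ D = V := Subgroup.eq_of_le_of_card_ge hle (by rw [h, hV4])
      exact hVD (h' ▸ inf_le_right)
    have hne1 : Nat.card ↥(V ⊓ D) ≠ 1 := by
      intro h
      rw [Subgroup.card_eq_one] at h
      have hz' : z ∈ V ⊓ D := ⟨hzV, hzD⟩
      rw [h] at hz'
      exact hz1 (Subgroup.mem_bot.mp hz')
    have h2 : Nat.card ↥(V ⊓ D) = 2 := by
      have hle4 : Nat.card ↥(V ⊓ D) ≤ 4 := Nat.le_of_dvd (by norm_num) hdvd
      have hpos : 0 < Nat.card ↥(V ⊓ D) := Nat.card_pos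
      interval_cases hc : Nat.card ↥(V ⊓ D) <;> omega
    obtain ⟨y, -, hy⟩ := (Nat.card_eq_two_iff' (1 : ↥(V ⊓ D))).mp h2
    by_cases hu1 : u = 1
    · exact Or.inl hu1
    · right
      have e1 := hy ⟨u, huV, huD⟩ (fun h => hu1 (by simpa using congrArg Subtype.val h))
      have e2 := hy ⟨z, hzV, hzD⟩ (fun h => hz1 (by simpa using congrArg Subtype.val h))
      have e3 := e1.trans e2.symm
      simpa using congrArg Subtype.val e3
  have hQv : ∀ q ∈ D, v * q * v⁻¹ = q ∨ v * q * v⁻¹ = q * z := by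
    intro q hq
    have hqT : q ∈ T := hDT hq
    have h1 : v * q * v⁻¹ ∈ D := (Subgroup.mem_normalizer_iff.mp (hDTn hvT) q).mp hq
    have h2 : q * v⁻¹ * q⁻¹ ∈ V :=
      (Subgroup.mem_normalizer_iff.mp (hSV (hTS hqT)) v⁻¹).mp (V.inv_mem hvV)
    have h3 : v * q * v⁻¹ * q⁻¹ ∈ D := D.mul_mem h1 (D.inv_mem hq)
    have h4 : v * q * v⁻¹ * q⁻¹ ∈ V := by
      have e : v * q * v⁻¹ * q⁻¹ = v * (q * v⁻¹ * q⁻¹) := by group
      rw [e]; exact V.mul_mem hvV h2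
    rcases hVD2 _ h4 h3 with h | h
    · left
      calc v * q * v⁻¹ = (v * q * v⁻¹ * q⁻¹) * q := by group
        _ = q := by rw [h, one_mul]
    · right
      calc v * q * v⁻¹ = (v * q * v⁻¹ * q⁻¹) * q := by group
        _ = z * q := by rw [h]
        _ = q * z := (hzTc q hqT).symm
  have hsv : ∀ s ∈ S, s * v * s⁻¹ = v ∨ s * v * s⁻¹ = v * z := by
    intro s hs
    have hw : s * v * s⁻¹ ∈ V := (Subgroup.mem_normalizer_iff.mp (hSV hs) v).mp hvV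
    have hwD : s * v * s⁻¹ ∉ D := by
      intro hwD
      have e : v = s⁻¹ * (s * v * s⁻¹) * s := by group
      rcases hVD2 _ hw hwD with h | h
      · have hv1 : v = 1 := by
          rw [e, h]; group
        exact hvD (by rw [hv1]; exact D.one_mem)
      · have hvz : v = z := by
          rw [e, h]
          have hc := hzS s hs
          calc s⁻¹ * z * s = s⁻¹ * (z * s) := by group
            _ = s⁻¹ * (s * z) := by rw [hc]
            _ = z := by group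
        exact hvD (by rw [hvz]; exact hzD)
    have hwT : s * v * s⁻¹ ∈ T := hVT hw
    have h1 : s * v * s⁻¹ * v ∈ D := hD2 _ hwT v hvT hwD hvD
    have h2 : s * v * s⁻¹ * v ∈ V := V.mul_mem hw hvV
    rcases hVD2 _ h2 h1 with h | h
    · left
      calc s * v * s⁻¹ = (s * v * s⁻¹ * v) * v⁻¹ := by group
        _ = v⁻¹ := by rw [h, one_mul]
        _ = v := hvi
    · right
      calc s * v * s⁻¹ = (s * v * s⁻¹ * v) * v⁻¹ := by group
        _ = z * v⁻¹ := by rw [h]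
        _ = z * v := by rw [hvi]
        _ = v * z := (hzS v (hTS hvT)).symm
  have hkQ : ∀ q ∈ D, k * q * k⁻¹ ∈ D := fun q hq =>
    (Subgroup.mem_normalizer_iff.mp (hDK hkK) q).mp hq
  have hvk' : v * k * v⁻¹ * k ∈ D := hOD (hinv v hvT hvD k hkK)
  have main : ∀ s ∈ S, s ∈ Subgroup.normalizer (T : Set G) → ∀ q ∈ D, s * q * s⁻¹ ∈ D := by
    intro s hs hsN
    have hsT : ∀ t ∈ T, s * t * s⁻¹ ∈ T := fun t ht =>
      (Subgroup.mem_normalizer_iff.mp hsN t).mp ht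
    exact Cfsg.Agent.H29.R1.r1_out_core T D z v k s hDT hvT hTQv hv2 hz2 hzD hzTc hQv hk3 hkz
      hkQ hvk' hsT (hsv s hs)
  intro s hs hsN
  rw [Subgroup.mem_normalizer_iff]
  intro q
  constructor
  · exact main s hs hsN q
  · intro hq
    have h := main s⁻¹ (S.inv_mem hs) (Subgroup.inv_mem _ hsN) _ hq
    have e : s⁻¹ * (s * q * s⁻¹) * s⁻¹⁻¹ = q := by group
    rwa [e] at h

/-- The three P-side facts used by KB-NORM (for any `Base`), with `O = O₂(K)`, `D = O₂(K ⊔ T)`. -/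
def StPSide : Prop := ∀ {G : Type u} [Group G] [Finite G] (S : Sylow 2 G) (M T K L : Subgroup G),
  Base S M T K L →
  pCoreOf 2 K ≤ pCoreOf 2 (K ⊔ T) ∧
  (∀ a ∈ T, ∀ b ∈ T, a ∉ pCoreOf 2 (K ⊔ T) → b ∉ pCoreOf 2 (K ⊔ T) →
    a * b ∈ pCoreOf 2 (K ⊔ T)) ∧
  (∀ x ∈ T, x ∉ pCoreOf 2 (K ⊔ T) → ∀ g ∈ K, x * g * x⁻¹ * g ∈ pCoreOf 2 K)

/-- KB-NORM from the P-side facts, PF and VNE. -/
theorem kbNorm_of (hPS : StPSide.{u}) (hPF : StPF.{u}) (hVne : StVne.{u}) : StKBNorm.{u} := by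
  intro G _ _ S M K L T' K' L' hR hVQ
  have hR0 := hR
  obtain ⟨hB, hNS, hB', hne⟩ := hR0
  obtain ⟨hV4, hV2, hNV, ⟨z, hzV, hz1, hzS, hzL', -, -⟩, hCent, -⟩ :=
    Cfsg.Agent.H48.Jy.vfacts S M K L T' K' L' hB hNS hB' hne
  obtain ⟨hOO, hO'T, hT'S, hK'L', -⟩ := Cfsg.Agent.H66.Jy.core_chain S L T' K' L' hB'
  obtain ⟨hQT, -, hPQ⟩ := hPF S L T' K' L' hB'
  obtain ⟨-, hVT⟩ := hVne S M K L T' K' L' hR
  obtain ⟨hOD, hDidx, hInv⟩ := hPS S L T' K' L' hB'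
  obtain ⟨-, -, -, -, hT'max, -, hK', -, -⟩ := hB'
  obtain ⟨hT'2, -, -, -⟩ := hT'max.1
  obtain ⟨hK'0, hK'nL, -⟩ := hK'
  obtain ⟨-, -, hidx3, -, -, -⟩ := hK'0.1
  have hSL : (S : Subgroup G) ≤ L := Subgroup.le_normalizer.trans hNS
  have hzc : z ∈ Subgroup.centralizer ((S : Subgroup G) : Set G) :=
    (Cfsg.Agent.H66.Jy.omegaCenterOf_le_infOz _ hzS).2
  exact kb_abs (omegaCenterOf (pCoreOf 2 L)) (S : Subgroup G) L T' K' (pCoreOf 2 K')
    (pCoreOf 2 (K' ⊔ T')) (pCoreOf 2 L') z hV4 hV2 (hNV.ge.trans' hSL) hzV hz1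
    (fun s hs => Subgroup.mem_centralizer_iff.mp hzc s hs) (hCent z hzV hz1) hT'S hVT hK'nL
    (hOO.trans (hO'T.trans (hT'S.trans hSL))) (Subgroup.map_subtype_le _)
    (hT'2.to_le (hOO.trans hO'T)) hidx3 hInv hQT (le_sup_left.trans hPQ)
    (le_sup_right.trans hPQ) hDidx hOD hzL'
    (hK'L'.trans (Cfsg.Agent.Helper55.J48.le_normalizer_pCoreOf L')) hOO (hT'2.to_le hO'T) hVQ

end Cfsg.Agent.H29.Jx

#print axioms Cfsg.Agent.H29.Jx.kb_abs
#print axioms Cfsg.Agent.H29.Jx.kbNorm_of
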