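import Cfsg.Agent.H29.NCKTStruct

set_option autoImplicit false

/-!
# NCK-CYC (helper29, for helper76's kill of configuration (NC), S1353/S1354)
-/

namespace Cfsg.Agent.H29.NCKill

open Cfsg Subgroup Cfsg.Agent.H76.NCKill

universe u

variable {G : Type u} [Group G]

/-- Two commuting elements of order dividing `p` generate an elementary abelian subgroup. -/
theorem pair_elemAb {H : Type*} [Group H] {p : ℕ} {x z : H} (hc : x * z = z * x)
    (hx : x ^ p = 1) (hz : z ^ p = 1) :
    IsMulCommutative (closure ({x, z} : Set H)) ∧ ∀ a ∈ closure ({x, z} : Set H), a ^ p = 1 := by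
  have hk : ∀ a ∈ ({x, z} : Set H), ∀ b ∈ ({x, z} : Set H), a * b = b * a := by
    rintro a (rfl | rfl) b (rfl | rfl)
    · rfl
    · exact hc
    · exact hc.symm
    · rfl
  have h1 : closure ({x, z} : Set H) ≤ centralizer ({x, z} : Set H) :=
    (closure_le _).2 (fun a ha => mem_centralizer_iff.2 (fun b hb => hk b hb a ha))
  have h2 : closure ({x, z} : Set H) ≤ centralizer (closure ({x, z} : Set H) : Set H) :=
    (closure_le _).2 (fun a ha => mem_centralizer_iff.2
      (fun b hb => ((mem_centralizer_iff.1 (h1 hb)) a ha).symm))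
  have hcomm : ∀ a ∈ closure ({x, z} : Set H), ∀ b ∈ closure ({x, z} : Set H), a * b = b * a :=
    fun a ha b hb => ((mem_centralizer_iff.1 (h2 ha)) b hb).symm
  refine ⟨⟨⟨fun a b => Subtype.ext (hcomm a.1 a.2 b.1 b.2)⟩⟩, ?_⟩
  intro a ha
  refine Subgroup.closure_induction (p := fun a _ => a ^ p = 1) ?_ ?_ ?_ ?_ ha
  · rintro a (rfl | rfl)
    · exact hx
    · exact hz
  · exact one_pow _
  · intro a b ha hb ha' hb'
    have hab : Commute a b := hcomm a ha b hb
    rw [hab.mul_pow, ha', hb', one_mul]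
  · intro a _ ha'
    rw [inv_pow, ha', inv_one]

theorem pow_eq_one_of_card {H : Type*} [Group H] {p : ℕ} {X : Subgroup H}
    (hc : Nat.card X = p) {x : H} (hx : x ∈ X) : x ^ p = 1 := by
  have h := pow_card_eq_one' (G := X) (x := ⟨x, hx⟩)
  rw [hc] at h
  simpa using congrArg Subtype.val h

/-- In a `p`-subgroup `Q` of a group of `p`-rank at most `1`, two subgroups of order `p`
coincide. -/
theorem eq_of_card_prime_of_rank_one {H : Type*} [Group H] [Finite H] {p : ℕ} [Fact p.Prime]
    (hrk : PRankLE p 1 H) {Q X Y : Subgroup H} (hQ : IsPGroup p Q) (hX : X ≤ Q) (hY : Y ≤ Q)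
    (hcX : Nat.card X = p) (hcY : Nat.card Y = p) : X = Y := by
  have hp : p.Prime := Fact.out
  have hQne : Q ≠ ⊥ := by
    intro h
    have : X = ⊥ := le_bot_iff.1 (h ▸ hX)
    rw [this, Subgroup.card_bot] at hcX
    exact hp.one_lt.ne hcX
  haveI : Nontrivial Q := (Subgroup.nontrivial_iff_ne_bot Q).2 hQne
  haveI := hQ.center_nontrivial
  have hdvd : p ∣ Nat.card (center Q) := by
    rcases (hQ.to_subgroup (center Q)).card_eq_or_dvd with h | h
    · exact absurd h (Finite.one_lt_card).ne'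
    · exact h
  obtain ⟨z0, hz0⟩ := exists_prime_orderOf_dvd_card' p hdvd
  have hzord : orderOf ((z0 : Q) : H) = p := by
    rw [Subgroup.orderOf_coe, Subgroup.orderOf_coe]; exact hz0
  have hzc : ∀ y ∈ Q, y * ((z0 : Q) : H) = ((z0 : Q) : H) * y := by
    intro y hy
    have := (Subgroup.mem_center_iff.1 z0.2) ⟨y, hy⟩
    exact congrArg Subtype.val this
  have key : ∀ X : Subgroup H, X ≤ Q → Nat.card X = p → X = zpowers ((z0 : Q) : H) := by
    intro X hX hcX
    obtain ⟨x, hxX, hx1⟩ : ∃ x ∈ X, x ≠ 1 := by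
      by_contra hcon
      push Not at hcon
      have : X = ⊥ := (Subgroup.eq_bot_iff_forall _).2 hcon
      rw [this, Subgroup.card_bot] at hcX
      exact hp.one_lt.ne hcX
    have hxp : x ^ p = 1 := pow_eq_one_of_card hcX hxX
    have hxord : orderOf x = p := by
      rcases (Nat.dvd_prime hp).1 (orderOf_dvd_of_pow_eq_one hxp) with h | h
      · exact absurd (orderOf_eq_one_iff.1 h) hx1
      · exact h
    have hzx : zpowers x = X := by
      apply Subgroup.eq_of_le_of_card_ge ((zpowers_le).2 hxX)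
      rw [Nat.card_zpowers, hxord, hcX]
    obtain ⟨hB1, hB2⟩ := pair_elemAb (hzc x (hX hxX)) hxp
      (by rw [← hzord]; exact pow_orderOf_eq_one _)
    have hBcard := hrk _ hB1 hB2
    rw [pow_one] at hBcard
    have e1 : zpowers x = closure ({x, ((z0 : Q) : H)} : Set H) := by
      apply Subgroup.eq_of_le_of_card_ge ((zpowers_le).2 (subset_closure (by simp)))
      rw [Nat.card_zpowers, hxord]; exact hBcard
    have e2 : zpowers ((z0 : Q) : H) = closure ({x, ((z0 : Q) : H)} : Set H) := by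
      apply Subgroup.eq_of_le_of_card_ge ((zpowers_le).2 (subset_closure (by simp)))
      rw [Nat.card_zpowers, hzord]; exact hBcard
    rw [← hzx, e1, e2]
  rw [key X hX hcX, key Y hY hcY]

theorem pRankLE_of_le {p k : ℕ} {E M : Subgroup G} (h : E ≤ M) (hrk : PRankLE p k M) :
    PRankLE p k E := by
  intro B hB hBp
  have h1 := hrk (B.map (Subgroup.inclusion h)) inferInstance (by
    rintro _ ⟨a, ha, rfl⟩
    rw [← map_pow, hBp a ha, map_one])
  rwa [Subgroup.card_map_of_injective (Subgroup.inclusion_injective h)] at h1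

theorem card_subgroupOf_of_le {X E : Subgroup G} (h : X ≤ E) :
    Nat.card (X.subgroupOf E) = Nat.card X :=
  Nat.card_congr (Subgroup.subgroupOfEquivOfLe h).toEquiv

/-- Inside a finite group `E` of `p`-rank at most one, two subgroups of order `p` are
conjugate. -/
theorem conj_of_card_prime [Finite G] {p : ℕ} [Fact p.Prime] {E X Y : Subgroup G}
    (hrk : PRankLE p 1 E) (hX : X ≤ E) (hY : Y ≤ E) (hcX : Nat.card X = p)
    (hcY : Nat.card Y = p) : ∃ e ∈ E, ∀ y ∈ Y, e * y * e⁻¹ ∈ X := by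
  have hXp : IsPGroup p (X.subgroupOf E) :=
    IsPGroup.of_card (n := 1) (by rw [card_subgroupOf_of_le hX, hcX, pow_one])
  have hYp : IsPGroup p (Y.subgroupOf E) :=
    IsPGroup.of_card (n := 1) (by rw [card_subgroupOf_of_le hY, hcY, pow_one])
  obtain ⟨Q, hQ⟩ := IsPGroup.exists_le_sylow hXp
  obtain ⟨Q', hQ'⟩ := IsPGroup.exists_le_sylow hYp
  obtain ⟨e, he⟩ := MulAction.exists_smul_eq E Q' Q
  have hY1 : (Y.subgroupOf E).map (MulAut.conj e).toMonoidHom ≤ (Q : Subgroup E) := by
    rintro _ ⟨y, hy, rfl⟩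
    rw [← he, Sylow.coe_subgroup_smul]
    exact Subgroup.smul_mem_pointwise_smul _ _ _ (hQ' hy)
  have hcard1 : Nat.card ((Y.subgroupOf E).map (MulAut.conj e).toMonoidHom) = p := by
    rw [card_map_conj, card_subgroupOf_of_le hY, hcY]
  have heq := eq_of_card_prime_of_rank_one hrk Q.2 hQ hY1
    ((card_subgroupOf_of_le hX).trans hcX) hcard1
  refine ⟨e, e.2, fun y hy => ?_⟩
  have h1 : (MulAut.conj e) ⟨y, hY hy⟩ ∈ X.subgroupOf E := by
    rw [heq]; exact ⟨⟨y, hY hy⟩, Subgroup.mem_subgroupOf.2 hy, rfl⟩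
  simpa [Subgroup.mem_subgroupOf, MulAut.conj_apply] using h1

theorem cyc [Finite G] : StCyc G := by
  intro hG M E A P r p _ nc S hA0S hPS A' hA'conj hA0A' hA'S hTcomm hOmega x hx hxr
  have hr : r.Prime := Fact.out
  obtain ⟨m, hmM, rfl⟩ := hA'conj
  have hp : p.Prime := nc.tau1.1
  haveI : Fact p.Prime := ⟨hp⟩
  have hEM : E ≤ M := nc.compl.1
  have hA0A : A0 M A ≤ A := inf_le_left
  have hA0card := card_A0 hG nc
  have h18 := Cfsg.Agent.S1418.result hG M nc.coatom E nc.compl r nc.tau2 A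
    ⟨nc.AE, nc.Ael, nc.Acard⟩
  have hEN : E ≤ normalizer (A : Set G) := h18.1.1
  have hCE : centralizer (A : Set G) ≤ E := by
    have := h18.2.1.1
    rw [h18.2.1.2.1] at this; exact this
  have hA'el : IsElementaryAbelian r (A.map (MulAut.conj m).toMonoidHom) :=
    elemAb_map_conj m nc.Ael
  have hA'card : Nat.card (A.map (MulAut.conj m).toMonoidHom) = r ^ 2 :=
    (card_map_conj A m).trans nc.Acard
  -- (i) `P` does not centralize `A'`
  have hi : ¬ P ≤ centralizer ((A.map (MulAut.conj m).toMonoidHom : Subgroup G) : Set G) := by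
    intro hPA'
    have hP'C : P.map (MulAut.conj m⁻¹).toMonoidHom ≤ centralizer (A : Set G) := by
      intro y hy
      rw [mem_map_conj] at hy
      rw [mem_centralizer_iff]
      intro a ha
      have h1 : m * a * m⁻¹ ∈ A.map (MulAut.conj m).toMonoidHom :=
        mem_map_conj.2 (by simpa [mul_assoc] using ha)
      have h2 := mem_centralizer_iff.1 (hPA' hy) _ h1
      simp only [inv_inv] at h2
      have h3 : m⁻¹ * (m * a * m⁻¹ * (m * y * m⁻¹)) * m
          = m⁻¹ * (m * y * m⁻¹ * (m * a * m⁻¹)) * m := by rw [h2]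
      simpa [mul_assoc] using h3
    have hP'E : P.map (MulAut.conj m⁻¹).toMonoidHom ≤ E := hP'C.trans hCE
    have hP'card : Nat.card (P.map (MulAut.conj m⁻¹).toMonoidHom) = p :=
      (card_map_conj P _).trans nc.Pcard
    have hrkE : PRankLE p 1 E := pRankLE_of_le hEM nc.tau1.2.2.2.2
    obtain ⟨e, heE, he⟩ := conj_of_card_prime hrkE hP'E nc.PE hP'card nc.Pcard
    apply nc.PA
    intro y hy
    rw [mem_centralizer_iff]
    intro a ha
    have h1 : e * a * e⁻¹ ∈ A := ((mem_normalizer_iff.1 (hEN heE)) a).1 ha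
    have h2 := mem_centralizer_iff.1 (hP'C (he y hy)) _ h1
    have h3 : e⁻¹ * (e * a * e⁻¹ * (e * y * e⁻¹)) * e
        = e⁻¹ * (e * y * e⁻¹ * (e * a * e⁻¹)) * e := by rw [h2]
    simpa [mul_assoc] using h3
  -- (ii) `A' ⊓ C(P) = A₀`
  have hA0CP : A0 M A ≤ centralizer (P : Set G) := by
    intro a ha
    rw [mem_centralizer_iff]
    intro g hg
    exact ((mem_centralizer_iff.1 (nc.PA0 hg)) a ha).symm
  have hinter : A.map (MulAut.conj m).toMonoidHom ⊓ centralizer (P : Set G) = A0 M A := by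
    symm
    apply Subgroup.eq_of_le_of_card_ge (le_inf hA0A' hA0CP)
    rw [hA0card]
    have hdvd : Nat.card ↥(A.map (MulAut.conj m).toMonoidHom ⊓ centralizer (P : Set G))
        ∣ r ^ 2 := by
      rw [← hA'card]; exact Subgroup.card_dvd_of_le inf_le_left
    obtain ⟨k, hk, hkc⟩ := (Nat.dvd_prime_pow hr).1 hdvd
    rw [hkc]
    rcases Nat.lt_or_ge k 2 with hk2 | hk2
    · have : k ≤ 1 := by omega
      calc r ^ k ≤ r ^ 1 := Nat.pow_le_pow_right hr.pos this
        _ = r := pow_one r
    · exfalso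
      have hk2' : k = 2 := by omega
      subst hk2'
      have heq : A.map (MulAut.conj m).toMonoidHom
          = A.map (MulAut.conj m).toMonoidHom ⊓ centralizer (P : Set G) := by
        symm
        apply Subgroup.eq_of_le_of_card_ge inf_le_left
        rw [hkc, hA'card]
      apply hi
      intro g hg
      rw [mem_centralizer_iff]
      intro y hy
      have hy' : y ∈ centralizer (P : Set G) := by
        rw [heq] at hy; exact hy.2
      exact ((mem_centralizer_iff.1 hy') g hg).symm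
  -- (iii)
  have hFp : IsPGroup r ↥((S : Subgroup G) ⊓ centralizer (P : Set G)) := S.2.to_le inf_le_left
  have hA0F : A0 M A ≤ (S : Subgroup G) ⊓ centralizer (P : Set G) := le_inf hA0S hA0CP
  have hFne : (S : Subgroup G) ⊓ centralizer (P : Set G) ≠ ⊥ := by
    intro h
    have : A0 M A = ⊥ := le_bot_iff.1 (h ▸ hA0F)
    rw [this, Subgroup.card_bot] at hA0card
    exact hr.one_lt.ne hA0card
  haveI : Nontrivial ↥((S : Subgroup G) ⊓ centralizer (P : Set G)) :=
    (Subgroup.nontrivial_iff_ne_bot _).2 hFne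
  haveI := hFp.center_nontrivial
  have hdvd : r ∣ Nat.card (center ↥((S : Subgroup G) ⊓ centralizer (P : Set G))) := by
    rcases (hFp.to_subgroup (center _)).card_eq_or_dvd with h | h
    · exact absurd h (Finite.one_lt_card).ne'
    · exact h
  obtain ⟨z0, hz0⟩ := exists_prime_orderOf_dvd_card' r hdvd
  have hzord : orderOf (((z0 : ↥((S : Subgroup G) ⊓ centralizer (P : Set G))) : G)) = r := by
    rw [Subgroup.orderOf_coe, Subgroup.orderOf_coe]; exact hz0
  have hzF : (((z0 : ↥((S : Subgroup G) ⊓ centralizer (P : Set G))) : G))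
      ∈ (S : Subgroup G) ⊓ centralizer (P : Set G) := (z0 : ↥((S : Subgroup G) ⊓ centralizer (P : Set G))).2
  have hzc : ∀ y ∈ (S : Subgroup G) ⊓ centralizer (P : Set G),
      y * (((z0 : ↥((S : Subgroup G) ⊓ centralizer (P : Set G))) : G))
        = (((z0 : ↥((S : Subgroup G) ⊓ centralizer (P : Set G))) : G)) * y := by
    intro y hy
    have := (Subgroup.mem_center_iff.1 z0.2) ⟨y, hy⟩
    exact congrArg Subtype.val this
  generalize (((z0 : ↥((S : Subgroup G) ⊓ centralizer (P : Set G))) : G)) = z at hzord hzF hzc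
  have hzr : z ^ r = 1 := by rw [← hzord]; exact pow_orderOf_eq_one z
  have hzT : z ∈ (S : Subgroup G) ⊓ centralizer ((A0 M A : Subgroup G) : Set G) :=
    ⟨hzF.1, mem_centralizer_iff.2 (fun a ha => hzc a (hA0F ha))⟩
  have hzA' : z ∈ A.map (MulAut.conj m).toMonoidHom := hOmega z hzT hzr
  have hzA0 : z ∈ A0 M A := by rw [← hinter]; exact ⟨hzA', hzF.2⟩
  have hA0z : zpowers z = A0 M A := by
    apply Subgroup.eq_of_le_of_card_ge ((zpowers_le).2 hzA0)
    rw [Nat.card_zpowers, hzord, hA0card]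
  have hxT : x ∈ (S : Subgroup G) ⊓ centralizer ((A0 M A : Subgroup G) : Set G) := by
    refine ⟨hx.1, ?_⟩
    show x ∈ centralizer ((A0 M A : Subgroup G) : Set G)
    rw [← hA0z, mem_centralizer_iff]
    intro a ha
    obtain ⟨k, rfl⟩ := Subgroup.mem_zpowers_iff.1 ha
    have hc : Commute z x := (hzc x hx).symm
    exact (hc.zpow_left k)
  have hxA' := hOmega x hxT hxr
  rw [← hinter]; exact ⟨hxA', hx.2⟩

example [Finite G] : StCyc G := cyc

end Cfsg.Agent.H29.NCKill

#print axioms Cfsg.Agent.H29.NCKill.cyc
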