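import Cfsg.Agent.S1413
import Cfsg.Agent.S1417
import Cfsg.Agent.S1418
import Cfsg.Agent.S1419
import Cfsg.Agent.H76.NCKillDefs

set_option autoImplicit false

/-!
# NCK-TSTRUCT (helper29, for helper76's kill of configuration (NC), S1353/S1354)
-/

namespace Cfsg.Agent.H29.NCKill

open Cfsg Subgroup Cfsg.Agent.H76.NCKill

universe u

variable {G : Type u} [Group G]

theorem mem_map_conj {A : Subgroup G} {m x : G} :
    x ∈ A.map (MulAut.conj m).toMonoidHom ↔ m⁻¹ * x * m ∈ A := by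
  constructor
  · rintro ⟨a, ha, rfl⟩
    simpa [MulAut.conj_apply, mul_assoc] using ha
  · intro h
    exact ⟨m⁻¹ * x * m, h, by simp [MulAut.conj_apply, mul_assoc]⟩

theorem card_map_conj (A : Subgroup G) (m : G) :
    Nat.card (A.map (MulAut.conj m).toMonoidHom) = Nat.card A :=
  Subgroup.card_map_of_injective (MulAut.conj m).injective

theorem elemAb_map_conj {r : ℕ} {A : Subgroup G} (m : G) (h : IsElementaryAbelian r A) :
    IsElementaryAbelian r (A.map (MulAut.conj m).toMonoidHom) := by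
  refine ⟨⟨⟨?_⟩⟩, ?_⟩
  · rintro ⟨x, hx⟩ ⟨y, hy⟩
    rw [mem_map_conj] at hx hy
    apply Subtype.ext
    have h1 := congrArg Subtype.val (h.1.1.1 ⟨_, hx⟩ ⟨_, hy⟩)
    simp only [Subgroup.coe_mul] at h1 ⊢
    have h2 : m * (m⁻¹ * x * m * (m⁻¹ * y * m)) * m⁻¹ = m * (m⁻¹ * y * m * (m⁻¹ * x * m)) * m⁻¹ := by
      rw [h1]
    simpa [mul_assoc] using h2
  · intro x hx
    rw [mem_map_conj] at hx
    have h1 := h.2 _ hx
    have h2 : m⁻¹ * x ^ r * m = 1 := by
      rw [← h1]
      have := map_pow (MulAut.conj m⁻¹) x r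
      simpa [MulAut.conj_apply] using this
    have h3 : x ^ r = m * (m⁻¹ * x ^ r * m) * m⁻¹ := by group
    rw [h3, h2]; group

/-- The order of `A₀` is `r`. -/
theorem card_A0 [Finite G] (hG : IsMinSimpleOddOrder G) {M E A P : Subgroup G} {r p : ℕ}
    [Fact r.Prime] (nc : NC M E A P r p) : Nat.card (A0 M A) = r :=
  (Cfsg.Agent.S1419.result hG M nc.coatom E nc.compl r nc.tau2 nc.nonab A
    ⟨nc.AE, nc.Ael, nc.Acard⟩).2.1.1

/-- `N_G(A₀) = M`. -/
theorem normalizer_A0 [Finite G] (hG : IsMinSimpleOddOrder G) {M E A P : Subgroup G} {r p : ℕ}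
    [Fact r.Prime] (nc : NC M E A P r p) : normalizer ((A0 M A : Subgroup G) : Set G) = M := by
  have hr : r.Prime := Fact.out
  have hA0card := card_A0 hG nc
  have hAM : A ≤ M := nc.AE.trans nc.compl.1
  have hA0A : A0 M A ≤ A := inf_le_left
  have hA0ne : A0 M A ≠ ⊥ := by
    intro h
    rw [h, Subgroup.card_bot] at hA0card
    exact hr.one_lt.ne hA0card
  have hA0top : A0 M A ≠ ⊤ := by
    intro h
    have : M = ⊤ := top_le_iff.1 (h ▸ (hA0A.trans hAM))
    exact nc.coatom.1 this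
  have hNtop := Cfsg.Agent.H51.BG10.normalizer_ne_top_of_ne hG hA0ne hA0top
  have hle : M ≤ normalizer ((A0 M A : Subgroup G) : Set G) :=
    nc.Z.trans (Subgroup.centralizer_le_normalizer _)
  rcases eq_or_lt_of_le hle with h | h
  · exact h.symm
  · exact absurd (nc.coatom.2 _ h) hNtop

/-- `C_G(A₀) = M`. -/
theorem centralizer_A0 [Finite G] (hG : IsMinSimpleOddOrder G) {M E A P : Subgroup G} {r p : ℕ}
    [Fact r.Prime] (nc : NC M E A P r p) : centralizer ((A0 M A : Subgroup G) : Set G) = M :=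
  le_antisymm ((Subgroup.centralizer_le_normalizer _).trans (normalizer_A0 hG nc).le) nc.Z

theorem tStruct [Finite G] : StTStruct G := by
  intro hG M E A P r p _ nc S hA0S
  have hr : r.Prime := Fact.out
  have hEM : E ≤ M := nc.compl.1
  have hAM : A ≤ M := nc.AE.trans hEM
  have hA0A : A0 M A ≤ A := inf_le_left
  have hNM := normalizer_A0 hG nc
  have hCM := centralizer_A0 hG nc
  -- S1413 clause 2
  have h13 := (Cfsg.Agent.S1413.result hG r S).2.1 (A0 M A) hA0S
  rw [hNM] at h13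
  have hTp : IsPGroup r (((S : Subgroup G) ⊓ M).subgroupOf M) := by
    intro g
    obtain ⟨k, hk⟩ := S.2 ⟨g.1.1, (Subgroup.mem_subgroupOf.1 g.2).1⟩
    refine ⟨k, ?_⟩
    have hk' := congrArg Subtype.val hk
    apply Subtype.ext; apply Subtype.ext
    simpa using hk'
  set PT : Sylow r M := hTp.toSylow h13 with hPTdef
  have hPTcoe : (PT : Subgroup M) = ((S : Subgroup G) ⊓ M).subgroupOf M := IsPGroup.toSylow_coe _ _
  have hPTmap : (PT : Subgroup M).map M.subtype = (S : Subgroup G) ⊓ M := by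
    rw [hPTcoe, Subgroup.subgroupOf_map_subtype, inf_assoc, inf_idem]
  -- a Sylow of `M` over `A`
  have hAp : IsPGroup r (A.subgroupOf M) := by
    intro g
    refine ⟨1, ?_⟩
    have := nc.Ael.2 g.1.1 (Subgroup.mem_subgroupOf.1 g.2)
    apply Subtype.ext; apply Subtype.ext
    simpa using this
  obtain ⟨P1, hP1⟩ := IsPGroup.exists_le_sylow hAp
  obtain ⟨g, hg⟩ := MulAction.exists_smul_eq M P1 PT
  refine ⟨A.map (MulAut.conj (g : G)).toMonoidHom, ⟨(g : G), g.2, rfl⟩,
    elemAb_map_conj _ nc.Ael, (card_map_conj A _).trans nc.Acard, ?_⟩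
  have hA'T : A.map (MulAut.conj (g : G)).toMonoidHom ≤ (S : Subgroup G) ⊓ M := by
    intro x hx
    rw [mem_map_conj] at hx
    have hxM : x ∈ M := by
      have := M.mul_mem (M.mul_mem g.2 (hAM hx)) (M.inv_mem g.2)
      simpa [mul_assoc] using this
    have h1 : (⟨g⁻¹ * x * g, hAM hx⟩ : M) ∈ (P1 : Subgroup M) :=
      hP1 (Subgroup.mem_subgroupOf.2 hx)
    have h2 : (⟨x, hxM⟩ : M) ∈ (PT : Subgroup M) := by
      rw [← hg, Sylow.coe_subgroup_smul, Subgroup.mem_pointwise_smul_iff_inv_smul_mem]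
      have : (MulAut.conj g)⁻¹ • (⟨x, hxM⟩ : M) = ⟨g⁻¹ * x * g, hAM hx⟩ := by
        apply Subtype.ext
        simp [MulAut.smul_def]
      rw [this]; exact h1
    rw [hPTcoe, Subgroup.mem_subgroupOf] at h2
    exact h2
  have h17 := Cfsg.Agent.S1417.result hG M nc.coatom r nc.tau2
    (A.map (MulAut.conj (g : G)).toMonoidHom)
    ⟨hA'T.trans inf_le_right, elemAb_map_conj _ nc.Ael, (card_map_conj A _).trans nc.Acard⟩
  have h17P := h17.2.1 PT
  have hOmega := (h17P.2 (by rw [hPTmap]; exact hA'T)).1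
  rw [hPTmap] at hOmega
  refine ⟨?_, hA'T.trans inf_le_left, ?_, ?_⟩
  · intro x hx
    have hxA : x ∈ A := hA0A hx
    exact (hOmega x ⟨hA0S hx, hAM hxA⟩).1 (nc.Ael.2 x hxA)
  · rw [hCM]
    refine ⟨⟨fun a b => ?_⟩⟩
    have ha : (⟨a.1, a.2.2⟩ : M) ∈ (PT : Subgroup M) := by
      rw [hPTcoe, Subgroup.mem_subgroupOf]; exact a.2
    have hb : (⟨b.1, b.2.2⟩ : M) ∈ (PT : Subgroup M) := by
      rw [hPTcoe, Subgroup.mem_subgroupOf]; exact b.2
    have h1 := congrArg Subtype.val (congrArg Subtype.val (h17P.1.1.1 ⟨_, ha⟩ ⟨_, hb⟩))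
    apply Subtype.ext
    simpa using h1
  · intro x hx hxr
    rw [hCM] at hx
    exact (hOmega x hx).1 hxr

example [Finite G] : StTStruct G := tStruct

end Cfsg.Agent.H29.NCKill

#print axioms Cfsg.Agent.H29.NCKill.tStruct
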