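import Cfsg.Agent.H29.TmArOF

/-!
# S5987-AROE (helper77's project): the arithmetic of the odd "exception" direction
-/

namespace Cfsg.Agent.H29.Tm

theorem arOddEx : Cfsg.Agent.H77.Tm.StArOddEx := by
  intro d m i hi _ hm hmd hex hneg
  rw [Nat.mul_mod_mul_left] at hneg
  obtain ⟨e, he1, he2, e', rfl⟩ := hex
  obtain ⟨d', rfl⟩ : ∃ d', d = d' + 1 := ⟨d - 1, by omega⟩
  have h1 := Nat.div_add_mod d' i
  have h2 := Nat.mod_lt d' hi
  have h3 := succ_mod_cases d' i hi
  -- `e' ≤ d' / i`
  have he' : e' ≤ d' / i := by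
    by_contra hcon
    have h4 : i * (d' / i + 1) ≤ i * e' := Nat.mul_le_mul_left i (by omega)
    rw [Nat.mul_add] at h4
    omega
  have he'' : i * e' ≤ i * (d' / i) := Nat.mul_le_mul_left i he'
  have he0 : 1 ≤ e' := by
    rcases Nat.eq_zero_or_pos e' with h | h
    · subst h; simp at he1; omega
    · exact h
  refine ⟨d' / i, by omega, by omega, ?_⟩
  intro j w hj hw hjw
  rcases Nat.eq_zero_or_pos j with hj0 | hj0
  · subst hj0
    simp only [Nat.mul_zero, Nat.zero_add] at hjw
    subst hjw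
    omega
  · -- `i ≤ m`, `m % i = w`
    have hwi : w < i := by omega
    have hmi : m % i = w := by
      rw [← hjw, Nat.mul_add_mod]; exact Nat.mod_eq_of_lt hwi
    have hil : i * 1 ≤ i * j := Nat.mul_le_mul_left i hj0
    apply hneg
    refine ⟨by omega, ?_⟩
    split_ifs at h3 with h
    · left; omega
    · omega

example : Cfsg.Agent.H77.Tm.StArOddEx := arOddEx

end Cfsg.Agent.H29.Tm

#print axioms Cfsg.Agent.H29.Tm.arOddEx
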