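import Cfsg.Agent.H77.TmDefs

/-!
# S5987-AROF (helper77's project): the arithmetic of the odd "fix" direction
-/

namespace Cfsg.Agent.H29.Tm

/-- `(d' + 1) % i` in terms of `d' % i`. -/
theorem succ_mod_cases (d' i : ℕ) (hi : 0 < i) :
    (d' + 1) % i = if d' % i + 1 = i then 0 else d' % i + 1 := by
  have h1 := Nat.div_add_mod d' i
  have h2 := Nat.mod_lt d' hi
  split_ifs with h
  · have h3 : d' + 1 = i * (d' / i + 1) := by rw [Nat.mul_add]; omega
    rw [h3]; exact Nat.mul_mod_right _ _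
  · have h3 : d' + 1 = i * (d' / i) + (d' % i + 1) := by omega
    rw [h3, Nat.mul_add_mod]; exact Nat.mod_eq_of_lt (by omega)

theorem arOddFix : Cfsg.Agent.H77.Tm.StArOddFix := by
  intro d m i A hi _ hmd him hcond hA
  rw [Nat.mul_mod_mul_left] at hcond
  obtain ⟨d', rfl⟩ : ∃ d', d = d' + 1 := ⟨d - 1, by omega⟩
  have h1 := Nat.div_add_mod d' i
  have h2 := Nat.mod_lt d' hi
  have h3 := succ_mod_cases d' i hi
  have hm1 := Nat.div_add_mod m i
  have hm2 := Nat.mod_lt m hi
  have hb : m % i ≤ d' % i := by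
    split_ifs at h3 with h
    · omega
    · omega
  -- `A ≤ d' / i`
  have hAc : A ≤ d' / i := by
    by_contra hcon
    have h4 : i * (d' / i + 1) ≤ i * A := Nat.mul_le_mul_left i (by omega)
    rw [Nat.mul_add] at h4
    omega
  have hAc' : i * A ≤ i * (d' / i) := Nat.mul_le_mul_left i hAc
  by_cases hcase : m / i ≤ A
  · exact ⟨m / i, m % i, hcase, by omega, hm1⟩
  · have h5 : i * A ≤ i * (m / i) := Nat.mul_le_mul_left i (by omega)
    exact ⟨A, m - i * A, le_refl _, by omega, by omega⟩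

example : Cfsg.Agent.H77.Tm.StArOddFix := arOddFix

end Cfsg.Agent.H29.Tm

#print axioms Cfsg.Agent.H29.Tm.arOddFix
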