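import Cfsg.Agent.H29.TypeP
import Cfsg.Agent.H27.Comp
import Cfsg.Agent.H40.Burnside

set_option autoImplicit false

namespace Cfsg.Agent.H29

open Cfsg

universe u

variable {X : Type u} [Group X]

/-- `x` is a 2-element. -/
def IsTwoElt (x : X) : Prop := ∃ k : ℕ, x ^ 2 ^ k = 1

theorem isTwoElt_conj {x : X} (hx : IsTwoElt x) (g : X) : IsTwoElt (g * x * g⁻¹) := by
  obtain ⟨k, hk⟩ := hx
  refine ⟨k, ?_⟩
  rw [conj_pow, hk, mul_one, mul_inv_cancel]

theorem isTwoElt_map {Y : Type*} [Group Y] (f : X →* Y) {x : X} (hx : IsTwoElt x) :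
    IsTwoElt (f x) := by
  obtain ⟨k, hk⟩ := hx
  exact ⟨k, by rw [← map_pow, hk, map_one]⟩

/-- A 2-element of `K O` lies in `K`, for `K` subnormal and `O` normal of odd order. -/
theorem mem_of_isTwoElt_of_mem_sup [Finite X] (O : Subgroup X) [O.Normal] (hO : Odd (Nat.card O))
    {K : Subgroup X} (hK : K.IsSubnormal) :
    ∀ x : X, IsTwoElt x → x ∈ K ⊔ O → x ∈ K := by
  induction hK with
  | top => intro x _ _; exact Subgroup.mem_top x
  | step H K hle hK hn ih =>
    intro x hx2 hx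
    have hxK : x ∈ K := ih x hx2 (sup_le_sup_right hle O hx)
    obtain ⟨k, hk⟩ := hx2
    rw [Subgroup.mem_sup_of_normal_right] at hx
    obtain ⟨h, hh, o, ho, rfl⟩ := hx
    have hoK : o ∈ K := by
      have : o = h⁻¹ * (h * o) := by group
      rw [this]; exact K.mul_mem (K.inv_mem (hle hh)) hxK
    have hq : QuotientGroup.mk' (H.subgroupOf K) ⟨h * o, hxK⟩ =
        QuotientGroup.mk' (H.subgroupOf K) ⟨o, hoK⟩ := by
      have h1 : (⟨h * o, hxK⟩ : K) = ⟨h, hle hh⟩ * ⟨o, hoK⟩ := rfl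
      rw [h1, map_mul]
      have h2 : QuotientGroup.mk' (H.subgroupOf K) ⟨h, hle hh⟩ = 1 := by
        rw [QuotientGroup.mk'_apply, QuotientGroup.eq_one_iff]; exact hh
      rw [h2, one_mul]
    have h1 : (QuotientGroup.mk' (H.subgroupOf K) ⟨h * o, hxK⟩) ^ 2 ^ k = 1 := by
      rw [← map_pow]
      have h2 : (⟨h * o, hxK⟩ : K) ^ 2 ^ k = 1 := Subtype.ext (by simpa using hk)
      rw [h2, map_one]
    have h2 : (QuotientGroup.mk' (H.subgroupOf K) ⟨h * o, hxK⟩) ^ (orderOf o) = 1 := by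
      rw [hq, ← map_pow]
      have h3 : (⟨o, hoK⟩ : K) ^ orderOf o = 1 := Subtype.ext (by simp [pow_orderOf_eq_one])
      rw [h3, map_one]
    have hodd : Odd (orderOf o) := hO.of_dvd_nat (Subgroup.orderOf_dvd_natCard O ho)
    have h3 : orderOf (QuotientGroup.mk' (H.subgroupOf K) ⟨h * o, hxK⟩) = 1 := by
      have d1 := orderOf_dvd_of_pow_eq_one h1
      have d2 := orderOf_dvd_of_pow_eq_one h2
      have hc : Nat.Coprime (2 ^ k) (orderOf o) :=
        Nat.Coprime.pow_left k (Nat.coprime_two_left.mpr hodd)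
      have d3 := Nat.dvd_gcd d1 d2
      rw [hc] at d3
      exact Nat.dvd_one.mp d3
    have h4 := orderOf_eq_one_iff.mp h3
    rw [QuotientGroup.mk'_apply, QuotientGroup.eq_one_iff] at h4
    exact h4

/-- Lifting 2-elements modulo a normal subgroup of odd order. -/
theorem exists_isTwoElt_lift [Finite X] (O : Subgroup X) [O.Normal] (hO : Odd (Nat.card O))
    (y : X) (hy : IsTwoElt (QuotientGroup.mk' O y)) :
    ∃ x : X, IsTwoElt x ∧ x ∈ Subgroup.zpowers y ∧
      QuotientGroup.mk' O y ∈ Subgroup.zpowers (QuotientGroup.mk' O x) := by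
  obtain ⟨k, hk⟩ := hy
  have hyO : y ^ 2 ^ k ∈ O := by
    rw [← map_pow, QuotientGroup.mk'_apply, QuotientGroup.eq_one_iff] at hk; exact hk
  have hmodd : Odd (orderOf (y ^ 2 ^ k)) := hO.of_dvd_nat (Subgroup.orderOf_dvd_natCard O hyO)
  refine ⟨y ^ orderOf (y ^ 2 ^ k), ⟨k, ?_⟩, ?_, ?_⟩
  · rw [← pow_mul, mul_comm, pow_mul]; exact pow_orderOf_eq_one _
  · exact Subgroup.pow_mem _ (Subgroup.mem_zpowers y) _
  · rw [map_pow]
    have d1 : orderOf (QuotientGroup.mk' O y) ∣ 2 ^ k := orderOf_dvd_of_pow_eq_one hk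
    exact mem_of_pow_mem_of_coprime _
      (Nat.Coprime.coprime_dvd_left d1 (Nat.Coprime.pow_left k (Nat.coprime_two_left.mpr hmodd)))
      (Subgroup.mem_zpowers _)

/-- A finite quasisimple group not of odd order has a non-central 2-element. -/
theorem exists_isTwoElt_not_mem_center {L : Type u} [Group L] [Finite L] (hL : IsQuasisimple L)
    (heven : ¬ Odd (Nat.card L)) : ∃ s : L, IsTwoElt s ∧ s ∉ Subgroup.center L := by
  by_contra hcon
  push Not at hcon
  have : Fact (Nat.Prime 2) := ⟨Nat.prime_two⟩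
  obtain ⟨S⟩ : Nonempty (Sylow 2 L) := inferInstance
  have hS : (S : Subgroup L) ≤ Subgroup.center L := by
    intro s hs
    apply hcon
    obtain ⟨k, hk⟩ := S.isPGroup' ⟨s, hs⟩
    exact ⟨k, by simpa using congrArg Subtype.val hk⟩
  obtain ⟨C, hCn, hCc, hCcop, -⟩ := H40.exists_normal_complement_of_central_sylow S hS
  have hcomm : IsMulCommutative (L ⧸ C) := by
    refine ⟨⟨fun a b => ?_⟩⟩
    obtain ⟨a, rfl⟩ := QuotientGroup.mk'_surjective C a
    obtain ⟨b, rfl⟩ := QuotientGroup.mk'_surjective C b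
    have ha : a ∈ C ⊔ (S : Subgroup L) := by rw [hCc.sup_eq_top]; exact Subgroup.mem_top a
    have hb : b ∈ C ⊔ (S : Subgroup L) := by rw [hCc.sup_eq_top]; exact Subgroup.mem_top b
    rw [Subgroup.mem_sup_of_normal_left] at ha hb
    obtain ⟨c1, hc1, s1, hs1, rfl⟩ := ha
    obtain ⟨c2, hc2, s2, hs2, rfl⟩ := hb
    have e1 : QuotientGroup.mk' C c1 = 1 := by
      rw [QuotientGroup.mk'_apply, QuotientGroup.eq_one_iff]; exact hc1
    have e2 : QuotientGroup.mk' C c2 = 1 := by
      rw [QuotientGroup.mk'_apply, QuotientGroup.eq_one_iff]; exact hc2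
    rw [map_mul, map_mul, e1, e2, one_mul, one_mul, ← map_mul, ← map_mul]
    congr 1
    exact Subgroup.mem_center_iff.mp (hS hs2) s1
  have hperfL : Group.IsPerfect L := hL.1
  have hperf : Group.IsPerfect (L ⧸ C) :=
    Group.IsPerfect.ofSurjective (f := QuotientGroup.mk' C) (QuotientGroup.mk'_surjective C)
  have hsub : Subsingleton (L ⧸ C) := Group.IsPerfect.subsingleton_of_isMulCommutative
  have hCtop : C = ⊤ := by
    rw [eq_top_iff]
    intro x _
    have : QuotientGroup.mk' C x = 1 := Subsingleton.elim _ _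
    rwa [QuotientGroup.mk'_apply, QuotientGroup.eq_one_iff] at this
  apply heven
  have h1 : Nat.card L = Nat.card C := by rw [hCtop]; exact (Subgroup.card_top).symm
  rw [h1]
  exact Nat.coprime_two_right.mp hCcop

/-- A component of `X / O(X)` is not of odd order. -/
theorem component_quot_not_odd [Finite X] {L : Subgroup (X ⧸ pPrimeCore 2 X)}
    (hL : IsComponent L) : ¬ Odd (Nat.card L) := by
  intro hodd
  have h1 : L ≤ pPrimeCore 2 (X ⧸ pPrimeCore 2 X) :=
    H27.le_rad_of_subnormal (H27.isoInv_coprime 2) (H27.radClosed_coprime 2) hL.1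
      (Nat.coprime_two_right.mpr hodd)
  rw [H60.pPrimeCore_quotient_eq_bot] at h1
  exact H27.isComponent_ne_bot hL (le_bot_iff.mp h1)

theorem conj_mem_closure {S : Set X} {g : X} (h1 : ∀ x ∈ S, g * x * g⁻¹ ∈ S) :
    ∀ h ∈ Subgroup.closure S, g * h * g⁻¹ ∈ Subgroup.closure S := by
  have hle : Subgroup.closure S ≤ (Subgroup.closure S).comap (MulAut.conj g).toMonoidHom := by
    rw [Subgroup.closure_le]
    intro x hx
    exact Subgroup.subset_closure (h1 x hx)
  intro h hh
  exact hle hh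

theorem mem_normalizer_closure {S : Set X} {g : X} (h1 : ∀ x ∈ S, g * x * g⁻¹ ∈ S)
    (h2 : ∀ x ∈ S, g⁻¹ * x * g ∈ S) :
    g ∈ Subgroup.normalizer ((Subgroup.closure S : Subgroup X) : Set X) := by
  rw [Subgroup.mem_normalizer_iff]
  intro h
  constructor
  · exact conj_mem_closure h1 h
  · intro hh
    have h2' : ∀ x ∈ S, g⁻¹ * x * g⁻¹⁻¹ ∈ S := by simpa using h2
    have h3 := conj_mem_closure h2' _ hh
    have e : g⁻¹ * (g * h * g⁻¹) * g⁻¹⁻¹ = h := by group
    rwa [e] at h3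

/-- The 2-elements of `X` mapping into the image of `K` modulo `O(X)`. -/
def twoSet (K : Subgroup X) : Set X :=
  {x : X | IsTwoElt x ∧
    QuotientGroup.mk' (pPrimeCore 2 X) x ∈ K.map (QuotientGroup.mk' (pPrimeCore 2 X))}

theorem twoSet_subset [Finite X] {K : Subgroup X} (hK : K.IsSubnormal) :
    twoSet K ⊆ (K : Set X) := by
  intro x hx
  obtain ⟨hx2, k, hk, hkx⟩ := hx
  apply mem_of_isTwoElt_of_mem_sup (pPrimeCore 2 X) (odd_card_oddCore X) hK x hx2
  have h1 : k⁻¹ * x ∈ pPrimeCore 2 X := QuotientGroup.eq.mp hkx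
  have h2 : x = k * (k⁻¹ * x) := by group
  rw [h2]
  exact Subgroup.mul_mem_sup hk h1

theorem conj_mem_twoSet {K : Subgroup X} {g : X}
    (hg : QuotientGroup.mk' (pPrimeCore 2 X) g ∈
      Subgroup.normalizer ((K.map (QuotientGroup.mk' (pPrimeCore 2 X)) : Subgroup _) : Set _)) :
    ∀ x ∈ twoSet K, g * x * g⁻¹ ∈ twoSet K := by
  intro x hx
  refine ⟨isTwoElt_conj hx.1 g, ?_⟩
  rw [map_mul, map_mul, map_inv]
  exact (Subgroup.mem_normalizer_iff.mp hg _).mp hx.2

theorem mem_normalizer_closure_twoSet {K : Subgroup X} {g : X}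
    (hg : QuotientGroup.mk' (pPrimeCore 2 X) g ∈
      Subgroup.normalizer ((K.map (QuotientGroup.mk' (pPrimeCore 2 X)) : Subgroup _) : Set _)) :
    g ∈ Subgroup.normalizer ((Subgroup.closure (twoSet K) : Subgroup X) : Set X) := by
  have hgn' : QuotientGroup.mk' (pPrimeCore 2 X) g⁻¹ ∈
      Subgroup.normalizer ((K.map (QuotientGroup.mk' (pPrimeCore 2 X)) : Subgroup _) : Set _) := by
    rw [map_inv]; exact Subgroup.inv_mem _ hg
  apply mem_normalizer_closure (conj_mem_twoSet hg)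
  intro x hx
  have h3 := conj_mem_twoSet hgn' x hx
  simpa using h3

/-- A 2-component is generated by the 2-elements of its full preimage modulo `O(X)`. -/
theorem closure_twoSet_eq [Finite X] {K : Subgroup X} (hK : IsPComponent 2 K) :
    Subgroup.closure (twoSet K) = K := by
  obtain ⟨hsub, hcomp, hmin⟩ := hK
  have hNK : Subgroup.closure (twoSet K) ≤ K := (Subgroup.closure_le K).mpr (twoSet_subset hsub)
  have hKH : K ≤ (K.map (QuotientGroup.mk' (pPrimeCore 2 X))).comap
      (QuotientGroup.mk' (pPrimeCore 2 X)) := Subgroup.le_comap_map _ K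
  have hHsub : ((K.map (QuotientGroup.mk' (pPrimeCore 2 X))).comap
      (QuotientGroup.mk' (pPrimeCore 2 X))).IsSubnormal := hcomp.1.comap _
  have hHnorm : (K.map (QuotientGroup.mk' (pPrimeCore 2 X))).comap
      (QuotientGroup.mk' (pPrimeCore 2 X)) ≤
      Subgroup.normalizer ((Subgroup.closure (twoSet K) : Subgroup X) : Set X) := by
    intro g hg
    exact mem_normalizer_closure_twoSet (Subgroup.le_normalizer (Subgroup.mem_comap.mp hg))
  have hNsub : (Subgroup.closure (twoSet K)).IsSubnormal :=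
    Subgroup.IsSubnormal.step _ _ (hNK.trans hKH) hHsub
      ((Subgroup.normal_subgroupOf_iff_le_normalizer (hNK.trans hKH)).mpr hHnorm)
  apply hmin _ hNsub hNK
  apply le_antisymm (Subgroup.map_mono hNK)
  have hq : IsQuasisimple ↥(K.map (QuotientGroup.mk' (pPrimeCore 2 X))) := hcomp.2
  have hMn : (((Subgroup.closure (twoSet K)).map (QuotientGroup.mk' (pPrimeCore 2 X))).subgroupOf
      (K.map (QuotientGroup.mk' (pPrimeCore 2 X)))).Normal := by
    rw [Subgroup.normal_subgroupOf_iff_le_normalizer (Subgroup.map_mono hNK)]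
    refine le_trans ?_ (Subgroup.le_normalizer_map _)
    exact Subgroup.map_mono (hKH.trans hHnorm)
  rcases H27.quasisimple_normal hq
    (((Subgroup.closure (twoSet K)).map (QuotientGroup.mk' (pPrimeCore 2 X))).subgroupOf
      (K.map (QuotientGroup.mk' (pPrimeCore 2 X)))) with h | h
  · exfalso
    obtain ⟨s, hs2, hsc⟩ := exists_isTwoElt_not_mem_center hq (component_quot_not_odd hcomp)
    apply hsc
    apply h
    show (s : X ⧸ pPrimeCore 2 X) ∈
      (Subgroup.closure (twoSet K)).map (QuotientGroup.mk' (pPrimeCore 2 X))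
    obtain ⟨y, hyK, hys⟩ := s.2
    have hy2 : IsTwoElt (QuotientGroup.mk' (pPrimeCore 2 X) y) := by
      rw [hys]; exact isTwoElt_map (K.map (QuotientGroup.mk' (pPrimeCore 2 X))).subtype hs2
    obtain ⟨x, hx2, hxy, hyx⟩ :=
      exists_isTwoElt_lift (pPrimeCore 2 X) (odd_card_oddCore X) y hy2
    have hxK : x ∈ K := (Subgroup.zpowers_le.mpr hyK) hxy
    have hxS : x ∈ twoSet K := ⟨hx2, Subgroup.mem_map_of_mem _ hxK⟩
    have hπx : QuotientGroup.mk' (pPrimeCore 2 X) x ∈
        (Subgroup.closure (twoSet K)).map (QuotientGroup.mk' (pPrimeCore 2 X)) :=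
      Subgroup.mem_map_of_mem _ (Subgroup.subset_closure hxS)
    rw [← hys]
    exact (Subgroup.zpowers_le.mpr hπx) hyx
  · intro z hz
    have hz' : (⟨z, hz⟩ : ↥(K.map (QuotientGroup.mk' (pPrimeCore 2 X)))) ∈
        ((Subgroup.closure (twoSet K)).map (QuotientGroup.mk' (pPrimeCore 2 X))).subgroupOf
          (K.map (QuotientGroup.mk' (pPrimeCore 2 X))) := by
      rw [h]; exact Subgroup.mem_top _
    exact hz'

/-- An element normalizing the image of a 2-component modulo `O(X)` normalizes the 2-component. -/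
theorem mem_normalizer_of_map_mem_normalizer [Finite X] {K : Subgroup X} (hK : IsPComponent 2 K)
    {g : X} (hg : QuotientGroup.mk' (pPrimeCore 2 X) g ∈
      Subgroup.normalizer ((K.map (QuotientGroup.mk' (pPrimeCore 2 X)) : Subgroup _) : Set _)) :
    g ∈ Subgroup.normalizer (K : Set X) := by
  have h := mem_normalizer_closure_twoSet hg
  rwa [closure_twoSet_eq hK] at h

theorem pComponent_le_normalizer [Finite X] {K K' : Subgroup X} (hK : IsPComponent 2 K)
    (hK' : IsPComponent 2 K') : K' ≤ Subgroup.normalizer (K : Set X) := by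
  intro g hg
  apply mem_normalizer_of_map_mem_normalizer hK
  have hg' : QuotientGroup.mk' (pPrimeCore 2 X) g ∈ K'.map (QuotientGroup.mk' (pPrimeCore 2 X)) :=
    Subgroup.mem_map_of_mem _ hg
  by_cases hne : K'.map (QuotientGroup.mk' (pPrimeCore 2 X)) =
      K.map (QuotientGroup.mk' (pPrimeCore 2 X))
  · rw [hne] at hg'; exact Subgroup.le_normalizer hg'
  · have hc := H27.components_commute hK'.2.1 hK.2.1 hne
    apply Subgroup.centralizer_le_normalizer
    rw [Subgroup.mem_centralizer_iff]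
    intro z hz
    exact (H27.comm_of_comm_eq_bot hc hg' hz).symm

theorem pLayer_le_normalizer [Finite X] {K : Subgroup X} (hK : IsPComponent 2 K) :
    pLayer 2 X ≤ Subgroup.normalizer (K : Set X) :=
  sSup_le (fun _ hK' => pComponent_le_normalizer hK hK')

theorem oddCore_le_normalizer [Finite X] {K : Subgroup X} (hK : IsPComponent 2 K) :
    pPrimeCore 2 X ≤ Subgroup.normalizer (K : Set X) := by
  intro g hg
  apply mem_normalizer_of_map_mem_normalizer hK
  have h1 : QuotientGroup.mk' (pPrimeCore 2 X) g = 1 := by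
    rw [QuotientGroup.mk'_apply, QuotientGroup.eq_one_iff]; exact hg
  rw [h1]; exact Subgroup.one_mem _

theorem pPrimePCore_le_normalizer [Finite X] {K : Subgroup X} (hK : IsPComponent 2 K) :
    pPrimePCore 2 X ≤ Subgroup.normalizer (K : Set X) := by
  intro g hg
  apply mem_normalizer_of_map_mem_normalizer hK
  have hg' : QuotientGroup.mk' (pPrimeCore 2 X) g ∈ pCore 2 (X ⧸ pPrimeCore 2 X) := hg
  have : Fact (Nat.Prime 2) := ⟨Nat.prime_two⟩
  have hsolv : Group.IsSolvable ↥(pCore 2 (X ⧸ pPrimeCore 2 X)) := by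
    have hp : IsPGroup 2 ↥(pCore 2 (X ⧸ pPrimeCore 2 X)) := pCore_isPGroup 2 _
    have := hp.isNilpotent
    infer_instance
  have hn : (pCore 2 (X ⧸ pPrimeCore 2 X)).Normal := inferInstance
  have hc := H27.component_comm_solvable _ (pCore 2 (X ⧸ pPrimeCore 2 X)) hK.2.1 hsolv
    (by rw [Subgroup.normalizer_eq_top_iff.mpr hn]; exact le_top)
  apply Subgroup.centralizer_le_normalizer
  rw [Subgroup.mem_centralizer_iff]
  intro z hz
  exact H27.comm_of_comm_eq_bot hc hz hg'

/-- The core of the centralizer of a Sylow 2-subgroup of `L_{2'}(X) O_{2',2}(X)` normalizes each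
2-component. -/
theorem coreCent_sylow_le_normalizer [Finite X] {K : Subgroup X} (hK : IsPComponent 2 K)
    (T : Sylow 2 ↥(pLayer 2 X ⊔ pPrimePCore 2 X)) :
    coreCent ((T : Subgroup ↥(pLayer 2 X ⊔ pPrimePCore 2 X)).map
      (pLayer 2 X ⊔ pPrimePCore 2 X).subtype) ≤ Subgroup.normalizer (K : Set X) := by
  have : Fact (Nat.Prime 2) := ⟨Nat.prime_two⟩
  have hYN : pLayer 2 X ⊔ pPrimePCore 2 X ≤ Subgroup.normalizer (K : Set X) :=
    sup_le (pLayer_le_normalizer hK) (pPrimePCore_le_normalizer hK)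
  have hKY : K ≤ pLayer 2 X ⊔ pPrimePCore 2 X := le_sup_of_le_left (le_sSup hK)
  have hcomp := hK.2.1
  have hq : IsQuasisimple ↥(K.map (QuotientGroup.mk' (pPrimeCore 2 X))) := hcomp.2
  -- a non-central 2-element of the image, lifted to a 2-element of `K`
  obtain ⟨s, hs2, hsc⟩ := exists_isTwoElt_not_mem_center hq (component_quot_not_odd hcomp)
  obtain ⟨y, hyK, hys⟩ := s.2
  have hy2 : IsTwoElt (QuotientGroup.mk' (pPrimeCore 2 X) y) := by
    rw [hys]; exact isTwoElt_map (K.map (QuotientGroup.mk' (pPrimeCore 2 X))).subtype hs2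
  obtain ⟨x, hx2, hxy, hyx⟩ := exists_isTwoElt_lift (pPrimeCore 2 X) (odd_card_oddCore X) y hy2
  have hxK : x ∈ K := (Subgroup.zpowers_le.mpr hyK) hxy
  have hxnc : ∃ z ∈ K.map (QuotientGroup.mk' (pPrimeCore 2 X)),
      QuotientGroup.mk' (pPrimeCore 2 X) x * z ≠ z * QuotientGroup.mk' (pPrimeCore 2 X) x := by
    by_contra hcon
    push Not at hcon
    apply hsc
    rw [Subgroup.mem_center_iff]
    intro z
    apply Subtype.ext
    show (z : X ⧸ pPrimeCore 2 X) * (s : X ⧸ pPrimeCore 2 X) = s * z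
    rw [← hys]
    have hz := hcon z z.2
    obtain ⟨i, hi⟩ := Subgroup.mem_zpowers_iff.mp hyx
    rw [← hi]
    exact (Commute.zpow_right (show Commute (z : X ⧸ pPrimeCore 2 X)
      (QuotientGroup.mk' (pPrimeCore 2 X) x) from hz.symm) i).eq
  obtain ⟨z, hzK, hxz⟩ := hxnc
  -- conjugate `x` into `T`
  have hxY : x ∈ pLayer 2 X ⊔ pPrimePCore 2 X := hKY hxK
  have hP : IsPGroup 2 ↥(Subgroup.zpowers (⟨x, hxY⟩ : ↥(pLayer 2 X ⊔ pPrimePCore 2 X))) := by
    obtain ⟨k, hk⟩ := hx2
    rintro ⟨a, ha⟩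
    refine ⟨k, ?_⟩
    obtain ⟨i, rfl⟩ := Subgroup.mem_zpowers_iff.mp ha
    apply Subtype.ext
    apply Subtype.ext
    simp only [Subgroup.coe_pow, Subgroup.coe_zpow, Subgroup.coe_one]
    rw [← zpow_natCast, ← zpow_mul, mul_comm, zpow_mul, zpow_natCast, hk, one_zpow]
  obtain ⟨T₁, hT₁⟩ := hP.exists_le_sylow
  obtain ⟨g, hg⟩ := MulAction.exists_smul_eq ↥(pLayer 2 X ⊔ pPrimePCore 2 X) T₁ T
  have hTT : (T : Subgroup ↥(pLayer 2 X ⊔ pPrimePCore 2 X)) =
      (T₁ : Subgroup ↥(pLayer 2 X ⊔ pPrimePCore 2 X)).map (MulAut.conj g).toMonoidHom := by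
    rw [← hg, Sylow.coe_subgroup_smul, Subgroup.pointwise_smul_def]
    rfl
  have hx'T : (g : X) * x * (g : X)⁻¹ ∈ (T : Subgroup ↥(pLayer 2 X ⊔ pPrimePCore 2 X)).map
      (pLayer 2 X ⊔ pPrimePCore 2 X).subtype := by
    refine ⟨g * ⟨x, hxY⟩ * g⁻¹, ?_, rfl⟩
    rw [hTT]
    exact ⟨⟨x, hxY⟩, hT₁ (Subgroup.mem_zpowers _), rfl⟩
  have hgN : (g : X) ∈ Subgroup.normalizer (K : Set X) := hYN g.2
  have hx'K : (g : X) * x * (g : X)⁻¹ ∈ K := (Subgroup.mem_normalizer_iff.mp hgN x).mp hxK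
  have hπgN : QuotientGroup.mk' (pPrimeCore 2 X) (g : X) ∈
      Subgroup.normalizer ((K.map (QuotientGroup.mk' (pPrimeCore 2 X)) : Subgroup _) : Set _) :=
    Subgroup.le_normalizer_map _ (Subgroup.mem_map_of_mem _ hgN)
  have hz'K : QuotientGroup.mk' (pPrimeCore 2 X) (g : X) * z *
      (QuotientGroup.mk' (pPrimeCore 2 X) (g : X))⁻¹ ∈
      K.map (QuotientGroup.mk' (pPrimeCore 2 X)) :=
    (Subgroup.mem_normalizer_iff.mp hπgN z).mp hzK
  have hx'z' : QuotientGroup.mk' (pPrimeCore 2 X) ((g : X) * x * (g : X)⁻¹) *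
      (QuotientGroup.mk' (pPrimeCore 2 X) (g : X) * z *
        (QuotientGroup.mk' (pPrimeCore 2 X) (g : X))⁻¹) ≠
      (QuotientGroup.mk' (pPrimeCore 2 X) (g : X) * z *
        (QuotientGroup.mk' (pPrimeCore 2 X) (g : X))⁻¹) *
      QuotientGroup.mk' (pPrimeCore 2 X) ((g : X) * x * (g : X)⁻¹) := by
    intro h
    apply hxz
    rw [map_mul, map_mul, map_inv] at h
    have h' := congrArg (fun w => (QuotientGroup.mk' (pPrimeCore 2 X) (g : X))⁻¹ * w *
      QuotientGroup.mk' (pPrimeCore 2 X) (g : X)) h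
    simp only [mul_assoc, inv_mul_cancel_left, inv_mul_cancel, mul_one] at h'
    simpa [mul_assoc] using h'
  -- now the main argument
  intro d hd
  obtain ⟨d', -, rfl⟩ := hd
  have hdc : ((g : X) * x * (g : X)⁻¹) * (d' : X) = (d' : X) * ((g : X) * x * (g : X)⁻¹) :=
    Subgroup.mem_centralizer_iff.mp d'.2 _ hx'T
  apply mem_normalizer_of_map_mem_normalizer hK
  by_cases hne : (K.map (QuotientGroup.mk' (pPrimeCore 2 X))).map
      (MulAut.conj (QuotientGroup.mk' (pPrimeCore 2 X) (d' : X))).toMonoidHom =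
      K.map (QuotientGroup.mk' (pPrimeCore 2 X))
  · exact H27.mem_normalizer_iff_map_conj_eq.mpr hne
  · exfalso
    have hcomp2 := H27.isComponent_map_equiv
      (MulAut.conj (QuotientGroup.mk' (pPrimeCore 2 X) (d' : X))) hcomp
    have hcc := H27.components_commute hcomp2 hcomp hne
    have hmem : QuotientGroup.mk' (pPrimeCore 2 X) ((g : X) * x * (g : X)⁻¹) ∈
        (K.map (QuotientGroup.mk' (pPrimeCore 2 X))).map
          (MulAut.conj (QuotientGroup.mk' (pPrimeCore 2 X) (d' : X))).toMonoidHom := by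
      refine ⟨QuotientGroup.mk' (pPrimeCore 2 X) ((g : X) * x * (g : X)⁻¹),
        Subgroup.mem_map_of_mem _ hx'K, ?_⟩
      show QuotientGroup.mk' (pPrimeCore 2 X) (d' : X) *
        QuotientGroup.mk' (pPrimeCore 2 X) ((g : X) * x * (g : X)⁻¹) *
        (QuotientGroup.mk' (pPrimeCore 2 X) (d' : X))⁻¹ = _
      rw [← map_mul, ← hdc, map_mul, mul_inv_cancel_right]
    exact hx'z' (H27.comm_of_comm_eq_bot hcc hmem hz'K)

/-- The extended 2-layer normalizes every 2-component. -/
theorem extendedTwoLayer_le_normalizer [Finite X] {K : Subgroup X} (hK : IsPComponent 2 K) :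
    extendedTwoLayer X ≤ Subgroup.normalizer (K : Set X) := by
  unfold extendedTwoLayer
  refine sup_le (sup_le (pLayer_le_normalizer hK) (oddCore_le_normalizer hK))
    (iSup_le fun T => ?_)
  exact coreCent_sylow_le_normalizer hK T

theorem pComponent_le_extendedTwoLayer {K : Subgroup X} (hK : IsPComponent 2 K) :
    K ≤ extendedTwoLayer X := by
  unfold extendedTwoLayer
  exact le_sup_of_le_left (le_sup_of_le_left (le_sSup hK))

end Cfsg.Agent.H29
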