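import Cfsg.Prelude.Def_OddOrderLocal
import Cfsg.Agent.H29.Cores

set_option autoImplicit false

namespace Cfsg.Agent.H29
open Cfsg

universe u
variable {G : Type u} [Group G]

theorem fittingHall_card_coprime_index (M : Type u) [Group M] [Finite M] :
    (Nat.card (fittingHall M)).Coprime (fittingHall M).index := by
  unfold fittingHall
  apply sSup_normal_induction (fun A : Subgroup M => (Nat.card A).Coprime A.index)
  · simp
  · intro A B hA hB hcA hcB
    apply Nat.Coprime.coprime_dvd_left (card_sup_dvd_mul A B)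
    apply Nat.Coprime.mul_left
    · exact Nat.Coprime.coprime_dvd_right (Subgroup.index_dvd_of_le le_sup_right) hcB
    · exact Nat.Coprime.coprime_dvd_right (Subgroup.index_dvd_of_le le_sup_left) hcA
  · intro A hA
    exact ⟨hA.1, hA.2.2⟩

theorem card_fittingHallOf (M : Subgroup G) :
    Nat.card (fittingHallOf M) = Nat.card (fittingHall ↥M) :=
  Nat.card_congr ((fittingHall ↥M).equivMapOfInjective M.subtype Subtype.coe_injective).symm.toEquiv

theorem fittingHallOf_le (M : Subgroup G) : fittingHallOf M ≤ M := by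
  rintro _ ⟨x, _, rfl⟩
  exact x.2

/-- A subgroup of `M` meeting `M_F` trivially has order coprime to that of `M_F`. -/
theorem card_coprime_card_fittingHallOf [Finite G] (M U : Subgroup G) (hU : U ≤ M)
    (hdisj : fittingHallOf M ⊓ U = ⊥) : (Nat.card U).Coprime (Nat.card (fittingHallOf M)) := by
  have h1 : fittingHall ↥M ⊓ U.subgroupOf M = ⊥ := by
    rw [eq_bot_iff]
    intro x hx
    obtain ⟨hx1, hx2⟩ := Subgroup.mem_inf.mp hx
    have hx3 : (x : G) ∈ fittingHallOf M ⊓ U :=
      Subgroup.mem_inf.mpr ⟨⟨x, hx1, rfl⟩, Subgroup.mem_subgroupOf.mp hx2⟩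
    rw [hdisj, Subgroup.mem_bot] at hx3
    rw [Subgroup.mem_bot]
    exact Subtype.ext hx3
  have h2 : Nat.card (U.subgroupOf M) = (fittingHall ↥M).relIndex (U.subgroupOf M) := by
    rw [← Subgroup.inf_relIndex_right, h1, Subgroup.relIndex_bot_left]
  have h3 : Nat.card (U.subgroupOf M) ∣ (fittingHall ↥M).index := by
    rw [h2]; exact Subgroup.relIndex_dvd_index_of_normal (H := fittingHall ↥M) (K := U.subgroupOf M)
  have h4 : Nat.card (U.subgroupOf M) = Nat.card U :=
    Nat.card_congr (Subgroup.subgroupOfEquivOfLe hU).toEquiv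
  rw [card_fittingHallOf, ← h4]
  exact Nat.Coprime.coprime_dvd_left h3 (fittingHall_card_coprime_index ↥M).symm

theorem mem_of_pow_mem_of_coprime (K : Subgroup G) {x : G} {n : ℕ}
    (h : (orderOf x).Coprime n) (hx : x ^ n ∈ K) : x ∈ K := by
  have h1 := Nat.gcd_eq_gcd_ab (orderOf x) n
  rw [h] at h1
  have h2 : x = x ^ ((orderOf x : ℤ) * (orderOf x).gcdA n + (n : ℤ) * (orderOf x).gcdB n) := by
    rw [← h1]; simp
  rw [h2, zpow_add, zpow_mul, zpow_mul, zpow_natCast, zpow_natCast, pow_orderOf_eq_one, one_zpow,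
    one_mul]
  exact zpow_mem hx _

theorem mem_centralizer_of_coprime_of_eq_mul [Finite G] (H : Subgroup G) {u h c : G}
    (hu : (orderOf u).Coprime (Nat.card H)) (hh : h ∈ H)
    (hc : c ∈ Subgroup.centralizer (H : Set G)) (huhc : u = h * c) :
    u ∈ Subgroup.centralizer (H : Set G) := by
  apply mem_of_pow_mem_of_coprime _ hu
  have hcomm : Commute h c := (Subgroup.mem_centralizer_iff.mp hc h hh)
  have h1 : h ^ Nat.card H = 1 := by
    have h2 : (⟨h, hh⟩ : H) ^ Nat.card H = 1 := pow_card_eq_one'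
    exact (Subgroup.coe_pow H ⟨h, hh⟩ (Nat.card H)).symm.trans (congrArg Subtype.val h2)
  rw [huhc, hcomm.mul_pow, h1, one_mul]
  exact pow_mem hc _

theorem card_of_isComplIn {A B M : Subgroup G} (h : IsComplIn A B M) :
    Nat.card M = Nat.card A * Nat.card B := by
  obtain ⟨hA, hB, hdisj, hsurj⟩ := h
  rw [← Nat.card_prod]
  symm
  apply Nat.card_congr
  refine Equiv.ofBijective (fun ab : A × B => (⟨(ab.1 : G) * ab.2, mul_mem (hA ab.1.2) (hB ab.2.2)⟩ : M))
    ⟨?_, ?_⟩
  · rintro ⟨a, b⟩ ⟨a', b'⟩ hab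
    have hab' : (a : G) * b = a' * b' := congrArg Subtype.val hab
    have h1 : (a' : G)⁻¹ * a = b' * (b : G)⁻¹ := by
      rw [inv_mul_eq_iff_eq_mul, ← mul_assoc, ← hab']; group
    have h2 : (a' : G)⁻¹ * a ∈ A ⊓ B :=
      Subgroup.mem_inf.mpr ⟨mul_mem (inv_mem a'.2) a.2, by rw [h1]; exact mul_mem b'.2 (inv_mem b.2)⟩
    rw [hdisj, Subgroup.mem_bot] at h2
    have h3 : (a : G) = a' := by
      have := inv_mul_eq_one.mp h2
      exact this.symm
    have h4 : (b : G) = b' := by
      rw [h3] at hab'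
      exact mul_left_cancel hab'
    exact Prod.ext (Subtype.ext h3) (Subtype.ext h4)
  · rintro ⟨m, hm⟩
    obtain ⟨a, ha, b, hb, rfl⟩ := hsurj m hm
    exact ⟨(⟨a, ha⟩, ⟨b, hb⟩), rfl⟩

end Cfsg.Agent.H29
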